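import Cfsg.Agent.XN.A
import Cfsg.Prelude.Def_GeometricClasses

/-! Eigenspaces of elements normalising an absolutely irreducible group of class two. -/

set_option autoImplicit false

namespace CF.XN

open Module
open scoped commutatorElement IsMulCommutative

section Grp

variable {G : Type*} [Group G] {M : Subgroup G}

/-- the commutator pairing with central values -/
def B (hM : ∀ x ∈ M, ∀ y ∈ M, ⁅x, y⁆ ∈ Subgroup.center G) (x y : M) : Additive (Subgroup.center G) :=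
  Additive.ofMul ⟨⁅(x : G), (y : G)⁆, hM x x.2 y y.2⟩

variable (hM : ∀ x ∈ M, ∀ y ∈ M, ⁅x, y⁆ ∈ Subgroup.center G)

theorem B_eq_zero {x y : M} : B hM x y = 0 ↔ ⁅(x : G), (y : G)⁆ = 1 := by
  unfold B
  rw [ofMul_eq_zero, Subtype.ext_iff]; rfl

theorem B_mul_left (x y z : M) : B hM (x * y) z = B hM x z + B hM y z := by
  unfold B
  rw [← ofMul_mul]
  congr 1
  apply Subtype.ext
  have h := Subgroup.mem_center_iff.1 (hM y y.2 z z.2)
  simp only [Subgroup.coe_mul]
  calc ⁅(x : G) * y, (z : G)⁆ = (x * ⁅(y : G), (z : G)⁆) * ((x : G)⁻¹ * ⁅(x : G), (z : G)⁆) := by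
        simp only [commutatorElement_def]; group
    _ = ⁅(y : G), (z : G)⁆ * ⁅(x : G), (z : G)⁆ := by rw [h]; group
    _ = _ := (h _).symm

theorem B_swap (x y : M) : B hM y x = -B hM x y := by
  unfold B
  rw [← ofMul_inv]
  congr 1
  apply Subtype.ext
  simp [commutatorElement_inv]

theorem B_self (x : M) : B hM x x = 0 := (B_eq_zero hM).2 (commutatorElement_self _)

theorem B_mul_right (x y z : M) : B hM z (x * y) = B hM z x + B hM z y := by
  rw [B_swap, B_mul_left, B_swap hM x, B_swap hM y]; abel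

theorem B_inv_left (x y : M) : B hM x⁻¹ y = -B hM x y := by
  have h1 := B_mul_left hM x⁻¹ x y
  have h2 := B_mul_left hM 1 1 y
  rw [inv_mul_cancel] at h1
  rw [one_mul, left_eq_add] at h2
  rw [h2] at h1
  exact eq_neg_of_add_eq_zero_left h1.symm

theorem B_inv_right (x y : M) : B hM y x⁻¹ = -B hM y x := by
  rw [B_swap, B_inv_left, B_swap hM x]

theorem polar (s : MulAut M) (hs : ∀ x y, B hM (s x) (s y) = B hM x y)
    (h : ∀ x, B hM (s x * x⁻¹) (s⁻¹ x * x⁻¹) = 0) (N : M → M) (hN : ∀ x, N x = s (s x) * x⁻¹) (x y : M) :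
    B hM (N (N (N x))) y = 0 := by
  have hs' : ∀ x y, B hM x (s⁻¹ y) = B hM (s x) y := fun x y => by
    rw [← hs, MulAut.apply_inv_self]
  have q : ∀ x, B hM (s (s x)) x - 2 • B hM (s x) x = 0 := by
    intro x
    have := h x
    simp only [B_mul_left, B_mul_right, B_inv_left, B_inv_right, hs', B_self, map_mul, map_inv] at this
    rw [← this]; abel
  have p : ∀ x y, B hM (s (s (s (s x)))) y - 2 • B hM (s (s (s x))) y + 2 • B hM (s x) y - B hM x y = 0 := by
    intro x y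
    have h1 := q (s (s x) * y)
    have h2 := q (s (s x))
    have h3 := q y
    simp only [map_mul, B_mul_left, B_mul_right, hs] at h1 h2
    rw [B_swap hM x y, B_swap hM (s x) y] at h1
    linear_combination (norm := abel) h1 - h2 - h3
  have h1 := p x y
  have h2 := p (s x) y
  have h3 := p (s (s x)) y
  simp only [hN, map_mul, map_inv, B_mul_left, B_inv_left]
  linear_combination (norm := abel) h1 + h2 + h2 + h3

include hM in
theorem polar' {g : G} (hg : g ∈ Subgroup.normalizer (M : Set G))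
    (h : ∀ x ∈ M, ⁅⁅g, x⁆, ⁅g⁻¹, x⁆⁆ = 1) {x y : G} (hx : x ∈ M) (hy : y ∈ M) :
    ⁅⁅g ^ 2, ⁅g ^ 2, ⁅g ^ 2, x⁆⁆⁆, y⁆ = 1 := by
  let s : MulAut M := M.normalizerMonoidHom ⟨g, hg⟩
  have hs : ∀ x : M, (s x : G) = g * x * g⁻¹ := fun x => rfl
  have hs' : ∀ x : M, (s⁻¹ x : G) = g⁻¹ * x * g := fun x => by
    have := hs (s⁻¹ x)
    rw [MulAut.apply_inv_self] at this
    rw [this]; group
  have := polar hM s (fun x y => by
      unfold B
      congr 1
      apply Subtype.ext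
      have := Subgroup.mem_center_iff.1 (hM x x.2 y y.2) g
      simp only [hs]
      calc ⁅g * x * g⁻¹, g * y * g⁻¹⁆ = (g * ⁅(x : G), (y : G)⁆) * g⁻¹ := by
            simp only [commutatorElement_def]; group
        _ = _ := by rw [this]; group)
    (fun x => by
      rw [B_eq_zero]
      have := h x x.2
      simpa only [Subgroup.coe_mul, Subgroup.coe_inv, hs, hs', commutatorElement_def, inv_inv] using this)
    (fun x => s (s x) * x⁻¹) (fun _ => rfl) ⟨x, hx⟩ ⟨y, hy⟩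
  rw [B_eq_zero] at this
  have e : ∀ x : M, ((s (s x) * x⁻¹ : M) : G) = ⁅g ^ 2, (x : G)⁆ := fun x => by
    simp only [Subgroup.coe_mul, Subgroup.coe_inv, hs, commutatorElement_def, pow_two]; group
  simpa only [e] using this

theorem comm_mem {g x : G} (hg : g ∈ Subgroup.normalizer (M : Set G)) (hx : x ∈ M) : ⁅g, x⁆ ∈ M :=
  M.mul_mem ((Subgroup.mem_normalizer_iff.1 hg x).1 hx) (M.inv_mem hx)

end Grp

variable {F : Type*} [Field F] {V : Type*} [AddCommGroup V] [Module F V] [FiniteDimensional F V]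
  {G : Type*} [Group G]

/-- a faithful representation and a subgroup with scalar commutators of exponent `r` whose centraliser
consists of scalars -/
structure XS (ρ : G →* End F V) (M : Subgroup G) (r : ℕ) : Prop where
  inj : Function.Injective ρ
  prime : r.Prime
  comm : ∀ x ∈ M, ∀ y ∈ M, ∃ c : F, c ^ r = 1 ∧ ρ x * ρ y = c • (ρ y * ρ x)
  schur : ∀ x : G, (∀ y ∈ M, x * y = y * x) → ∃ c : F, ρ x = c • 1

omit [FiniteDimensional F V] in
theorem rho_inj (ρ : G →* End F V) (x : G) : Function.Injective (ρ x) := by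
  intro u v h
  have := congrArg (ρ x⁻¹) h
  rwa [← End.mul_apply, ← End.mul_apply, ← map_mul, inv_mul_cancel, map_one] at this

omit [FiniteDimensional F V] in
theorem tw_of_comm (ρ : G →* End F V) {x y : G} {c : F} (h : ρ ⁅x, y⁆ = c • 1) :
    ρ x * ρ y = c • (ρ y * ρ x) := by
  have : x * y = ⁅x, y⁆ * (y * x) := by simp only [commutatorElement_def]; group
  rw [← map_mul, this, map_mul, h, map_mul, smul_mul_assoc, one_mul]

omit [FiniteDimensional F V] in
theorem comm_of_tw (ρ : G →* End F V) {x y : G} {c : F} (h : ρ x * ρ y = c • (ρ y * ρ x)) :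
    ρ ⁅x, y⁆ = c • 1 := by
  have : ⁅x, y⁆ = (x * y) * (y * x)⁻¹ := by simp only [commutatorElement_def]; group
  rw [this, map_mul, map_mul, h, smul_mul_assoc, ← map_mul, ← map_mul, mul_inv_cancel, map_one]

namespace XS

variable {ρ : G →* End F V} {M : Subgroup G} {r : ℕ} (H : XS ρ M r)
include H

omit [FiniteDimensional F V] in
theorem central {x : G} {c : F} (h : ρ x = c • 1) : x ∈ Subgroup.center G :=
  Subgroup.mem_center_iff.2 fun y => H.inj (by rw [map_mul, map_mul, h]; simp)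

omit [FiniteDimensional F V] in
theorem hM : ∀ x ∈ M, ∀ y ∈ M, ⁅x, y⁆ ∈ Subgroup.center G := by
  intro x hx y hy
  obtain ⟨c, -, h⟩ := H.comm x hx y hy
  exact H.central (comm_of_tw ρ h)

omit [FiniteDimensional F V] in
theorem exists_prim {d : G} (hd : d ∈ M) (hs : ¬ ∃ c : F, ρ d = c • 1) :
    ∃ y ∈ M, ∃ ζ : F, IsPrimitiveRoot ζ r ∧ ρ d * ρ y = ζ • (ρ y * ρ d) := by
  have : ∃ y ∈ M, d * y ≠ y * d := by
    by_contra! h
    exact hs (H.schur d h)
  obtain ⟨y, hy, hne⟩ := this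
  obtain ⟨c, hc, h⟩ := H.comm d hd y hy
  refine ⟨y, hy, c, ?_, h⟩
  have h1 : c ≠ 1 := by
    rintro rfl
    exact hne (H.inj (by rw [map_mul, map_mul, h, one_smul]))
  have := orderOf_eq_prime hc h1 (hp := ⟨H.prime⟩)
  exact this ▸ IsPrimitiveRoot.orderOf c

theorem eig_le {d : G} (hd : d ∈ M) (hs : ¬ ∃ c : F, ρ d = c • 1) (μ : F) :
    r * finrank F ((ρ d).eigenspace μ) ≤ finrank F V := by
  obtain ⟨y, -, ζ, hζ, h⟩ := H.exists_prim hd hs
  exact prim_le (rho_inj ρ y) (rho_inj ρ d) h hζ μ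

theorem half_of {g x : G} (hs : ∃ c : F, ρ ⁅g, x⁆ = c • 1) (h1 : ⁅g, x⁆ ≠ 1) (μ : F) :
    2 * finrank F ((ρ g).eigenspace μ) ≤ finrank F V := by
  obtain ⟨c, hc⟩ := hs
  refine two_le (rho_inj ρ x) (rho_inj ρ g) (tw_of_comm ρ hc) ?_ μ
  rintro rfl
  exact h1 (H.inj (by rw [hc, one_smul, map_one]))

omit H [FiniteDimensional F V] in
theorem fix_comm {g x : G} {μ : F} {v : V} (h1 : v ∈ (ρ g).eigenspace μ)
    (h2 : v ∈ ((ρ g).eigenspace μ).map (ρ x)) : ρ ⁅g, x⁆ v = v ∧ ρ ⁅g⁻¹, x⁆ v = v := by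
  obtain ⟨w, hw, rfl⟩ := h2
  rw [SetLike.mem_coe, End.mem_eigenspace_iff] at hw
  rw [End.mem_eigenspace_iff] at h1
  by_cases hμ : μ = 0
  · have : w = 0 := rho_inj ρ g (by rw [hw, hμ, zero_smul, map_zero])
    simp [this]
  have a1 : ∀ (a b : G) (u : V), ρ a (ρ b u) = ρ (a * b) u := fun a b u => by
    rw [map_mul, End.mul_apply]
  have hw' : ρ g⁻¹ w = μ⁻¹ • w := by
    apply rho_inj ρ g
    rw [a1, mul_inv_cancel, map_one, map_smul, hw, smul_smul, inv_mul_cancel₀ hμ, one_smul]; rfl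
  have h1' : ρ g⁻¹ (ρ x w) = μ⁻¹ • ρ x w := by
    apply rho_inj ρ g
    rw [a1, mul_inv_cancel, map_one, map_smul, h1, smul_smul, inv_mul_cancel₀ hμ, one_smul]; rfl
  constructor
  · rw [a1, show ⁅g, x⁆ * x = g * (x * g⁻¹) by simp only [commutatorElement_def]; group, ← a1, ← a1, hw',
      map_smul, map_smul, h1, smul_smul, inv_mul_cancel₀ hμ, one_smul]
  · rw [a1, show ⁅g⁻¹, x⁆ * x = g⁻¹ * (x * g) by simp only [commutatorElement_def]; group, ← a1, ← a1, hw,
      map_smul, map_smul, h1', smul_smul, mul_inv_cancel₀ hμ, one_smul]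

omit H in
theorem inter (g x : G) (μ : F) : 2 * finrank F ((ρ g).eigenspace μ) ≤
    finrank F V + finrank F ↥((ρ g).eigenspace μ ⊓ ((ρ g).eigenspace μ).map (ρ x)) := by
  have h1 := inter_le ((ρ g).eigenspace μ) (((ρ g).eigenspace μ).map (ρ x))
  have h2 := (Submodule.equivMapOfInjective (ρ x) (rho_inj ρ x) ((ρ g).eigenspace μ)).finrank_eq
  omega

theorem basic {g : G} (hg : g ∈ Subgroup.normalizer (M : Set G)) (hs : ¬ ∃ c : F, ρ g = c • 1) (μ : F) :
    2 * finrank F ((ρ g).eigenspace μ) ≤ finrank F V ∨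
      2 * r * finrank F ((ρ g).eigenspace μ) ≤ (r + 1) * finrank F V := by
  have : ∃ x ∈ M, g * x ≠ x * g := by
    by_contra! h
    exact hs (H.schur g h)
  obtain ⟨x, hx, hne⟩ := this
  by_cases h : ∃ c : F, ρ ⁅g, x⁆ = c • 1
  · exact Or.inl (H.half_of h (fun h1 => hne (commutatorElement_eq_one_iff_mul_comm.1 h1)) μ)
  right
  have h1 := H.eig_le (comm_mem hg hx) h 1
  have h2 := inter (ρ := ρ) g x μ
  have h3 : finrank F ↥((ρ g).eigenspace μ ⊓ ((ρ g).eigenspace μ).map (ρ x)) ≤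
      finrank F ((ρ ⁅g, x⁆).eigenspace 1) := Submodule.finrank_mono fun v hv => by
    rw [End.mem_eigenspace_iff, one_smul]; exact (fix_comm hv.1 hv.2).1
  nlinarith

theorem odd {g : G} (hg : g ∈ Subgroup.normalizer (M : Set G)) (hs : ¬ ∃ c : F, ρ g = c • 1) {w : ℕ}
    (hw : w.Prime) (hw2 : w ≠ 2) (hgw : g ^ w = 1) (hr : w ≠ r ∨ 4 ≤ r) (μ : F) :
    2 * finrank F ((ρ g).eigenspace μ) ≤ finrank F V := by
  by_contra hlt
  have h1 : ∀ x ∈ M, ⁅⁅g, x⁆, ⁅g⁻¹, x⁆⁆ = 1 := by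
    intro x hx
    have h2 := inter (ρ := ρ) g x μ
    have h3 : (ρ g).eigenspace μ ⊓ ((ρ g).eigenspace μ).map (ρ x) ≠ ⊥ := by
      intro h; rw [h, finrank_bot] at h2; omega
    obtain ⟨v, hv, hv0⟩ := Submodule.exists_mem_ne_zero_of_ne_bot h3
    obtain ⟨a1, a2⟩ := fix_comm hv.1 hv.2
    obtain ⟨c, -, hc⟩ := H.comm _ (comm_mem hg hx) _ (comm_mem (Subgroup.inv_mem _ hg) hx)
    have h4 := congrArg (fun f : End F V => f v) hc
    simp only [End.mul_apply, LinearMap.smul_apply, a1, a2] at h4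
    have h5 : c = 1 := by
      have : (c - 1) • v = 0 := by rw [sub_smul, ← h4, one_smul, sub_self]
      exact sub_eq_zero.1 ((smul_eq_zero.1 this).resolve_right hv0)
    apply H.inj
    rw [comm_of_tw ρ hc, h5, one_smul, map_one]
  have h2 := fun x hx y hy => polar' H.hM hg h1 (x := x) (y := y) hx hy
  set t := g ^ 2 with ht
  have htN : t ∈ Subgroup.normalizer (M : Set G) := Subgroup.pow_mem _ hg 2
  have htw : t ^ w = 1 := by rw [ht, ← pow_mul, mul_comm, pow_mul, hgw, one_pow]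
  have hts : ¬ ∃ c : F, ρ t = c • 1 := by
    rintro ⟨c, hc⟩
    obtain ⟨k, hk⟩ := hw.odd_of_ne_two hw2
    refine hs ⟨c ^ (k + 1), ?_⟩
    have : g = t ^ (k + 1) := by
      rw [ht, ← pow_mul, show 2 * (k + 1) = w + 1 by omega, pow_succ, hgw, one_mul]
    rw [this, map_pow, hc, smul_pow, one_pow]
  have hle : finrank F ((ρ g).eigenspace μ) ≤ finrank F ((ρ t).eigenspace (μ ^ 2)) :=
    Submodule.finrank_mono fun v hv => by
      rw [End.mem_eigenspace_iff] at hv ⊢
      rw [ht, map_pow, pow_two, End.mul_apply, hv, map_smul, hv, smul_smul, pow_two]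
  have h3 : ∀ x, (∃ c : F, ρ ⁅t, x⁆ = c • 1) → ⁅t, x⁆ = 1 := by
    intro x hx
    by_contra hne
    have := H.half_of hx hne (μ ^ 2)
    omega
  have h4 : ∀ x ∈ M, ⁅t, ⁅t, ⁅t, x⁆⁆⁆ = 1 := fun x hx =>
    h3 _ (H.schur _ fun y hy => commutatorElement_eq_one_iff_mul_comm.1 (h2 x hx y hy))
  obtain ⟨x, hx, hx1, hx2⟩ : ∃ x ∈ M, ⁅t, x⁆ ≠ 1 ∧ ⁅t, ⁅t, x⁆⁆ = 1 := by
    have : ∃ x ∈ M, t * x ≠ x * t := by
      by_contra! h
      exact hts (H.schur t h)
    obtain ⟨x, hx, hne⟩ := this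
    by_cases h : ⁅t, ⁅t, x⁆⁆ = 1
    · exact ⟨x, hx, fun h1 => hne (commutatorElement_eq_one_iff_mul_comm.1 h1), h⟩
    · exact ⟨_, comm_mem htN hx, h, h4 x hx⟩
  set d := ⁅t, x⁆ with hd
  have hdM : d ∈ M := comm_mem htN hx
  have hds : ¬ ∃ c : F, ρ d = c • 1 := fun h => hx1 (h3 x h)
  have htd : Commute t d := commutatorElement_eq_one_iff_commute.1 hx2
  have hdw : d ^ w = 1 := by
    have a1 : t⁻¹ * d = x * t⁻¹ * x⁻¹ := by rw [hd]; simp only [commutatorElement_def]; group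
    have a2 : (t⁻¹ * d) ^ w = 1 := by rw [a1, conj_pow, inv_pow, htw]; group
    rwa [htd.inv_left.mul_pow, inv_pow, htw, inv_one, one_mul] at a2
  obtain ⟨y, hy, ζ, hζ, hdy⟩ := H.exists_prim hdM hds
  by_cases hwr : w = r
  · subst hwr
    obtain ⟨ω, hω, hdx⟩ := H.comm d hdM x hx
    have := count hw (hr.resolve_left (fun h => h rfl)) (rho_inj ρ t) (rho_inj ρ d) (rho_inj ρ x) (rho_inj ρ y)
      hζ hdy hω hdx (by rw [← map_mul, ← map_mul, htd.eq])
      (by rw [← map_mul, ← map_mul, ← map_mul, hd]; congr 1; simp only [commutatorElement_def]; group)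
      (by rw [← map_pow, hdw, map_one]) (μ ^ 2)
    omega
  · have a1 : ∀ k : ℕ, ρ d ^ k * ρ y = ζ ^ k • (ρ y * ρ d ^ k) := by
      intro k
      induction k with
      | zero => simp
      | succ k ih =>
        rw [pow_succ', mul_assoc, ih, mul_smul_comm, ← mul_assoc, hdy, smul_mul_assoc, smul_smul, pow_succ ζ,
          mul_assoc]
    have a2 := a1 w
    rw [← map_pow, hdw, map_one, one_mul, mul_one] at a2
    have hV : Nontrivial V := by
      by_contra hV
      rw [not_nontrivial_iff_subsingleton] at hV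
      exact hs ⟨1, Subsingleton.elim _ _⟩
    obtain ⟨v, hv⟩ := exists_ne (0 : V)
    have a3 := congrArg (fun f : End F V => f v) a2
    simp only [LinearMap.smul_apply] at a3
    have a4 : ρ y v ≠ 0 := fun h => hv (rho_inj ρ y (by rw [h, map_zero]))
    have a5 : ζ ^ w = 1 := by
      have : (ζ ^ w - 1) • ρ y v = 0 := by rw [sub_smul, ← a3, one_smul, sub_self]
      exact sub_eq_zero.1 ((smul_eq_zero.1 this).resolve_right a4)
    exact hwr ((Nat.prime_dvd_prime_iff_eq H.prime hw).1 (hζ.dvd_of_pow_eq_one _ a5)).symm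

theorem dvd {d : G} (hd : d ∈ M) (hs : ¬ ∃ c : F, ρ d = c • 1) : r ∣ finrank F V := by
  obtain ⟨y, -, ζ, hζ, h⟩ := H.exists_prim hd hs
  have h1 := congrArg LinearMap.det h
  rw [LinearMap.det_smul, map_mul, map_mul, mul_comm (LinearMap.det (ρ y))] at h1
  have u : ∀ x : G, LinearMap.det (ρ x) ≠ 0 := fun x => by
    apply left_ne_zero_of_mul_eq_one (b := LinearMap.det (ρ x⁻¹))
    rw [← map_mul, ← map_mul, mul_inv_cancel, map_one, map_one]
  refine hζ.dvd_of_pow_eq_one _ ?_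
  exact (mul_right_cancel₀ (mul_ne_zero (u d) (u y)) (by rw [← h1, one_mul])).symm

theorem main {g : G} (hg : g ∈ Subgroup.normalizer (M : Set G)) (hs : ¬ ∃ c : F, ρ g = c • 1) {w : ℕ}
    (hw : w.Prime) (hgw : g ^ w = 1) (hM : ∃ d ∈ M, ¬ ∃ c : F, ρ d = c • 1) (μ : F) :
    (w = 2 → 4 * finrank F ((ρ g).eigenspace μ) ≤ 3 * finrank F V) ∧
    (w = 3 → 3 * finrank F ((ρ g).eigenspace μ) ≤ 2 * finrank F V) ∧
    (3 < w → 2 * finrank F ((ρ g).eigenspace μ) ≤ finrank F V) ∧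
    (w = 3 → ¬ 3 ∣ finrank F V → 2 * finrank F ((ρ g).eigenspace μ) ≤ finrank F V) := by
  have h2 := H.prime.two_le
  have hb := H.basic hg hs μ
  refine ⟨fun _ => ?_, fun h => ?_, fun h => ?_, fun h hn => ?_⟩
  · rcases hb with hb | hb
    · omega
    · nlinarith
  · by_cases hr : r = 2
    · have := H.odd hg hs hw (by omega) hgw (Or.inl (by omega)) μ
      omega
    · rcases hb with hb | hb
      · omega
      · have : 3 ≤ r := by omega
        nlinarith
  · exact H.odd hg hs hw (by omega) hgw (by omega) μ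
  · refine H.odd hg hs hw (by omega) hgw (Or.inl ?_) μ
    rintro rfl
    obtain ⟨d, hd, hds⟩ := hM
    exact hn (h ▸ H.dvd hd hds)

end XS

end CF.XN
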