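import Cfsg.Agent.XN.E

/-! The linear, unitary and symplectic groups of dimension four and normalisers of Pauli groups. -/

set_option autoImplicit false
set_option linter.unusedSectionVars false

namespace CF.XN

open Module Polynomial CF.Cls CF.Geom CF.MaxSub Subgroup Cfsg Cfsg.Geo

variable {F : Type*} [Field F] [Finite F] {K : Type*} [Field K] [Algebra F K] [IsAlgClosed K]
  [Algebra.IsAlgebraic F K] {V : Type*} [AddCommGroup V] [Module F V] [Finite V]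
  (p : ℕ) [hp : Fact p.Prime] [CharP F p] {G P : Subgroup (V ≃ₗ[F] V)} {Q : ℤ}
  {σ : F →+* F} {B : V →ₛₗ[σ] V →ₗ[F] F} {i : F}

omit hp [CharP F p] in
theorem conj_of_det {x y : V ≃ₗ[F] V} {Γ : Subgroup (V ≃ₗ[F] V)} {Z c : V ≃ₗ[F] V} (hZ : Z ∈ Γ) (hc : c ∈ Γ)
    (e : ∀ v, Z (x v) = y (Z v)) (cx : ∀ v, c (x v) = x (c v))
    (d : LinearMap.det (c : End F V) = LinearMap.det (Z : End F V)) :
    ∃ g ∈ Γ ⊓ SLG F V, g⁻¹ * x * g = y := by
  refine ⟨c * Z⁻¹, ⟨Γ.mul_mem hc (Γ.inv_mem hZ), ?_⟩, LinearEquiv.ext fun v => ?_⟩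
  · change LinearEquiv.det _ = 1
    rw [map_mul, map_inv, mul_inv_eq_one]
    exact Units.ext (by rw [LinearEquiv.coe_det, LinearEquiv.coe_det, d])
  · simp only [mul_inv_rev, inv_inv, LinearEquiv.mul_apply, ← cx, inv_apply_apply, e, apply_inv_apply]

omit hp [CharP F p] in
theorem ss_of {x : V ≃ₗ[F] V} {m : ℕ} (hm : (m : F) ≠ 0) (e : x ^ m = 1) : SS (x : End F V) :=
  ss_of_pow_eq_one hm (by rw [← coe_pow_le, e]; rfl)

theorem st_pair {A : Type*} [CommGroup A] {ζ : A} (h : ζ ^ Q = ζ ∨ ζ ^ Q = ζ⁻¹) :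
    ({1, 1, ζ, ζ⁻¹} : Multiset A).map (· ^ Q) = {1, 1, ζ, ζ⁻¹} := by
  simp only [Multiset.insert_eq_cons, Multiset.map_cons, Multiset.map_singleton, one_zpow, inv_zpow]
  rcases h with h | h <;> rw [h]
  rw [inv_inv]; exact congrArg (1 ::ₘ 1 ::ₘ ·) (Multiset.pair_comm _ _)

omit hp [CharP F p] in
theorem ex_of (H : ∀ s : Multiset Kˣ, s.card = 4 → s.map (· ^ Q) = s → s.prod = 1 →
    ∃ x ∈ G, ev K (x : End F V) = sm s) (ζ : Kˣ) (h : ζ ^ Q = ζ ∨ ζ ^ Q = ζ⁻¹) :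
    ∃ x ∈ G, ev K (x : End F V) = sm {1, 1, ζ, ζ⁻¹} :=
  H _ rfl (st_pair h) (by simp)

include p

theorem ex_SL (hV : finrank F V = 4) (s : Multiset Kˣ) (h1 : s.card = 4) (h2 : s.map (· ^ (Nat.card F : ℤ)) = s)
    (h3 : s.prod = 1) : ∃ x ∈ SLG F V, ev K (x : End F V) = sm s := by
  obtain ⟨f, ⟨u, rfl⟩, e⟩ := exists_ev (F := F) (V := V) p (J := sm s) (by rw [hV, ← h1]; exact adm_sm h2)
  exact ⟨LinearMap.GeneralLinearGroup.toLinearEquiv u, (det_sm p e).2 h3, e⟩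

theorem amb_SL (hV : finrank F V = 4) : Amb K (SLG F V) (Nat.card F) where
  st x _ := (adm_ev' p (isUnit_le x)).st
  det := le_rfl
  conj x _ y _ m hm e := fun ⟨Z, hZ⟩ => by
    haveI : Nontrivial V := (finrank_pos_iff (R := F)).1 (by omega)
    obtain ⟨c, hc, d⟩ := (ss_of hm e).detC_eq_top.ge (mem_top (LinearEquiv.det Z))
    simpa using conj_of_det (Γ := ⊤) trivial trivial hZ hc (by rw [← LinearEquiv.coe_det, d, LinearEquiv.coe_det])
  tv := by
    haveI : Nontrivial V := (finrank_pos_iff (R := F)).1 (by omega)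
    obtain ⟨v, v0⟩ := exists_ne (0 : V)
    obtain ⟨w, hw⟩ := exists_linearIndependent_pair_of_one_lt_finrank (R := F) (by omega) v0
    obtain ⟨φ, h1, h2⟩ := exists_dual_one (W := F ∙ v) (v := w) fun e => by
      obtain ⟨a, rfl⟩ := Submodule.mem_span_singleton.1 e
      simpa using (LinearIndependent.pair_iff.1 hw a (-1) (by simp)).2
    exact ⟨φ, v, h2 v (Submodule.mem_span_singleton_self v), v0, fun e => by simp [e] at h1, tvE_mem_SLG _⟩
  ex ζ h _ := ex_of (ex_SL p hV) ζ h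

variable {q : ℕ}

theorem ex_SU (hV : finrank F V = 4) (hF : Nat.card F = q ^ 2) (hσ : ∀ x, σ x = x ^ q) (hH : IsHerm B)
    (hB : B.Nondegenerate) (s : Multiset Kˣ) (h1 : s.card = 4) (h2 : s.map (· ^ (-(q : ℤ))) = s)
    (h3 : s.prod = 1) : ∃ x ∈ SUG B, ev K (x : End F V) = sm s := by
  obtain ⟨x, e⟩ := exists_UG_ev p hF hσ hH.ne_id (eh_symm hH.invol hB hH.symm) (J := sm s)
    (by rw [hV, ← h1]; exact adm_sm h2)
  exact ⟨x, ⟨x.2, (det_sm p e).2 h3⟩, e⟩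

theorem amb_SU (hV : finrank F V = 4) (hF : Nat.card F = q ^ 2) (hσ : ∀ x, σ x = x ^ q) (hH : IsHerm B)
    (hB : B.Nondegenerate) : Amb K (SUG B) (-(q : ℤ)) where
  st x hx := (adm_ev_pres p hF hσ (eh_symm hH.invol hB hH.symm) (pres_UG ⟨x, hx.1⟩)).st
  det := inf_le_right
  conj x hx y hy m hm e hs := by
    haveI : Nontrivial V := (finrank_pos_iff (R := F)).1 (by omega)
    have E := eh_symm hH.invol hB hH.symm
    obtain ⟨Z, h1, h2⟩ := E.exists_isom_of_sim E hH.ne_id (pres_UG ⟨x, hx.1⟩) (pres_UG ⟨y, hy.1⟩) hs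
    obtain ⟨c, c1, c2, c3⟩ := E.detU_of_ss hH.ne_id (pres_UG ⟨x, hx.1⟩) (ss_of hm e)
      (l := LinearMap.det (Z : End F V)) (by
        rw [← E.det_adj, ← map_mul, E.pres_iff.1 h1, map_one])
    obtain ⟨u, rfl⟩ := E.pres_isUnit c1
    exact conj_of_det (c := LinearMap.GeneralLinearGroup.toLinearEquiv u) (mem_UG.2 h1) (mem_UG.2 c1) h2
      (LinearMap.congr_fun c2) c3
  tv := by
    obtain ⟨v, v0, hv⟩ := exists_isotropic_of_two_le hH.ne_id hH.invol hH.symm (by omega)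
    obtain ⟨s, s0, hs⟩ := exists_skew_ne_zero hH.ne_id hH.invol
    exact ⟨s • B v, v, by simp [hv], v0, fun e => v0 (hB.1 v fun x => by
      simpa [s0] using LinearMap.congr_fun e x), mem_inf.2 ⟨(uTrans hH hv hs).2, mem_SLG.2 (det_uTrans hH hv hs)⟩⟩
  ex ζ h _ := ex_of (ex_SU p hV hF hσ hH hB) ζ h

theorem amb_Sp (hV : finrank F V = 4) {B : LinearMap.BilinForm F V} (hB : B.Nondegenerate) (hA : B.IsAlt) :
    Amb K (SpG B) (Nat.card F) where
  st x _ := (adm_ev' p (isUnit_le x)).st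
  det := SpG_le_SLG hB hA
  conj x hx y hy m hm e hs := by
    obtain ⟨g, hg⟩ := isConj_iff.1 (isConj_SpG_of_sim hB hA (x := ⟨x, hx⟩) (y := ⟨y, hy⟩) hm (Subtype.ext e) hs)
    exact ⟨g⁻¹, inv_mem g.2, by rw [inv_inv]; exact congrArg Subtype.val hg⟩
  tv := by
    haveI : Nontrivial V := (finrank_pos_iff (R := F)).1 (by omega)
    obtain ⟨v, hv⟩ := exists_ne (0 : V)
    exact ⟨(1 : F) • B.flip v, v, by simp [hA.self_eq_zero], hv, fun e => hv (hB.2 v fun x => by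
      simpa using LinearMap.congr_fun e x), (spTrans hA v 1).2⟩
  ex ζ h h2 := by
    classical
    have h1 : ζ ≠ 1 := fun e => h2 (by simp [e])
    obtain ⟨g, e⟩ := (ra_of_par (F := F) p (n := 4) (J := sm {1, 1, ζ, ζ⁻¹}) ⟨adm_sm (st_pair h),
        st_sm.2 (st_pair (.inr (zpow_neg_one ζ)))⟩ (fun x hx e _ => by
        obtain ⟨a, b⟩ := x
        obtain ⟨k, rfl⟩ := mem_sm.1 hx
        simp only [Multiset.insert_eq_cons, Multiset.mem_cons, Multiset.mem_singleton] at k e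
        rcases k with rfl | rfl | rfl | rfl
        · simp [sm, h1.symm, Multiset.count_singleton, h1]
        · simp [sm, h1.symm, Multiset.count_singleton, h1]
        · exact absurd e h2
        · exact absurd (by simpa using e) h2)).exists_SpG p hB hA (by rw [dm_sm, hV]; rfl)
    exact ⟨g, g.2, e⟩

omit [CharP F p] in
theorem pq_cast (hQ : PQ p Q) {r : ℕ} (hr : r.Prime) : (Q : ZMod r) = 0 ↔ r = p := by
  rw [ZMod.intCast_zmod_eq_zero_iff_dvd]
  refine ⟨fun h => ?_, fun e => e ▸ hQ.dvd⟩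
  obtain ⟨k, hk⟩ := hQ
  rw [Int.natCast_dvd, hk] at h
  exact (Nat.prime_dvd_prime_iff_eq hr hp.out).1 (hr.dvd_of_dvd_pow h)

theorem main_five (A : Amb K G Q) (h : PaL P) (h4 : finrank (ZMod 2) h.pg.W = 4) (hQ : PQ p Q)
    (hH : HC P (G ⊓ Nm P) (ng F V) gm1) {x : Fin 5 → V ≃ₗ[F] V} (a : AC P x)
    (gen : ∀ K : Subgroup _, (∀ c ∈ P, c ∈ center _ → c ∈ K) → (∀ i, x i ∈ K) → P ≤ K) :
    El G (Nm P) 5 ↔ (Q : ZMod 5) = 2 ∨ (Q : ZMod 5) = 3 := by
  have c := pq_cast p hQ Nat.prime_five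
  refine ⟨fun H => ?_, fun H => ?_⟩
  · have rp : 5 ≠ p := fun e => A.not_char p h h4 (e ▸ H)
    by_contra hn
    exact A.not_five p h h4 rp ((by decide : ∀ q : ZMod 5, q ≠ 0 → ¬ (q = 2 ∨ q = 3) → q = 1 ∨ q = -1) _
      (mt c.1 rp) hn) H
  · obtain ⟨g, hg, g0, g5⟩ := hH.exists_five_cycle a gen
    exact A.el_five p h h4 (fun e => by rw [c.2 e] at H; revert H; decide) H hg g0 g5

theorem main_lu (A : Amb K (SUG B) Q) (h : PaL P) (h4 : finrank (ZMod 2) h.pg.W = 4) (hQ : PQ p Q)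
    (L : LC B i) (hj : sc V L.i0 ∈ P) (hP : P ≤ UG B)
    (ex : ∀ s : Multiset Kˣ, s.card = 4 → s.map (· ^ Q) = s → s.prod = 1 →
      ∃ x ∈ SUG B, ev K (x : End F V) = sm s)
    (hs : ∀ c : Kˣ, c ^ Q = c → ∃ a : Fˣ, Units.map (algebraMap F K : F →* K) a = c ∧ sc V a.ne_zero ∈ UG B)
    {r : ℕ} (hr : r.Prime) (hx : ∃ x ∈ SUG B, orderOf x = r) : El (SUG B) (Nm P) r ↔
      r = 2 ∨ (r = 3 ∧ (Q : ZMod 3) = 2) ∨ (r = 5 ∧ ((Q : ZMod 5) = 2 ∨ (Q : ZMod 5) = 3)) := by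
  have hV := h.dim4 h4
  have hH := h.hc_SUG L (by omega) hj hP le_rfl
  obtain ⟨x, a, gen⟩ := h.pg.exists_ac h4 hj (sc_cen _) L.jj
  have c := pq_cast p hQ Nat.prime_three
  have m5 := main_five p A h h4 hQ hH a gen
  refine ⟨fun H => ?_, ?_⟩
  · rcases A.small h h4 hr H hx with rfl | rfl | rfl
    · exact .inl rfl
    · have rp : 3 ≠ p := fun e => A.not_char p h h4 (e ▸ H)
      refine .inr (.inl ⟨rfl, by_contra fun hn => A.not_three p h h4 rp
        ((by decide : ∀ q : ZMod 3, q ≠ 0 → ¬ q = 2 → q = 1) _ (mt c.1 rp) hn) ex H⟩)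
    · exact .inr (.inr ⟨rfl, m5.1 H⟩)
  rintro (rfl | ⟨rfl, H⟩ | ⟨rfl, H⟩)
  · refine A.el_two p h h4 (hH.le.trans inf_le_left) a fun c c1 c2 _ => ?_
    obtain ⟨b, rfl, hb⟩ := hs c c1
    obtain ⟨g, g1, gg, g0, tg, gU⟩ := h.exists_refl h4 hj (sc_cen _) L.jj
    have n2 : (2 : K) ≠ 0 := by rw [← map_ofNat (algebraMap F K), _root_.map_ne_zero]; exact h.two
    have e : ev K (g : End F V) = sm {1, 1, 1, -1} := by
      obtain ⟨d, -, k | k⟩ := ev_two (K := K) p hV (PaL_ne p h) (x := g) (z := 1)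
        (by rw [← coe_pow_le, pow_two, gg, map_one]; rfl) g0 <;> have t := tr_sm k <;>
        rw [show LinearMap.trace F V g = 2 from tg, map_ofNat] at t <;> simp at t
      · exact absurd t n2
      · rw [k, show d = 1 from Units.ext (mul_left_cancel₀ n2 (by simp; linear_combination -t))]
    have e' : ev K ((sc V b.ne_zero * g : V ≃ₗ[F] V) : End F V) = _ := ev_smul p (isUnit_le g) b
    rw [e, tw_sm] at e'
    simp only [Multiset.insert_eq_cons, Multiset.map_cons, Multiset.map_singleton, one_mul, neg_mul] at e'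
    refine ⟨_, ⟨⟨mul_mem hb (gU hP), (det_sm p e').2 ?_⟩, mul_mem (center_le_Nm P (sc_cen _)) g1⟩, e'⟩
    simp only [Multiset.prod_cons, Multiset.prod_singleton, mul_neg, neg_eq_iff_eq_neg, ← c2]
    simp [pow_succ, mul_assoc]
  · exact A.el_three p h h4 (fun e => by rw [c.2 e] at H; revert H; decide) H
      (h.exists_three hH h4 hj (sc_cen _) L.jj)
  · exact m5.2 H

theorem main_sp (h : PaL P) (h4 : finrank (ZMod 2) h.pg.W = 4) {B : LinearMap.BilinForm F V}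
    (hB : B.Nondegenerate) (hA : B.IsAlt) (hP : P ≤ SpG B) (hm : IsOfMinusType 2 P) {r : ℕ} (hr : r.Prime)
    (hx : ∃ x ∈ SpG B, orderOf x = r) : El (SpG B) (Nm P) r ↔
      r = 2 ∨ (r = 5 ∧ (((Nat.card F : ℤ) : ZMod 5) = 2 ∨ ((Nat.card F : ℤ) : ZMod 5) = 3)) := by
  have hV := h.dim4 h4
  have A := amb_Sp (K := AlgebraicClosure F) p hV hB hA
  have hH := hc_iso h (fun _ => mem_SpG) hP le_rfl
  obtain ⟨x, a, gen, all⟩ := h.pg.exists_five h4
    (h.pg.minus_two (fun c hc => h.pm_one hB (mem_SpG.1 (hP hc))) hm)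
  have hQ := pq_card (F := F) p
  have m5 := main_five p A h h4 hQ hH a gen
  refine ⟨fun H => ?_, ?_⟩
  · rcases A.small h h4 hr H hx with rfl | rfl | rfl
    · exact .inl rfl
    · have rp : 3 ≠ p := fun e => A.not_char p h h4 (e ▸ H)
      exact absurd H (A.not_three_sp p h h4 rp (mt (pq_cast p hQ Nat.prime_three).1 rp) a all)
    · exact .inr ⟨rfl, m5.1 H⟩
  rintro (rfl | ⟨rfl, H⟩)
  · refine A.el_two p h h4 hP a fun c _ c2 ⟨y, hy, z, e, e'⟩ => ?_
    haveI := h.nt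
    have c4 := congrArg Units.val c2
    have n2 : (2 : AlgebraicClosure F) ≠ 0 := by
      rw [← map_ofNat (algebraMap F _), _root_.map_ne_zero]; exact h.two
    simp only [Units.val_pow_eq_pow_val, Units.val_neg, Units.val_one] at c4
    rcases sq_eq_one_of_scalar (isWittPair_alt B hB hA) hy e with rfl | rfl
    · rw [map_one] at e'
      exact absurd (by linear_combination c4 - ((c : AlgebraicClosure F) ^ 2 + 1) * e') n2
    · rw [map_neg, map_one] at e'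
      exact absurd (by linear_combination c4 - ((c : AlgebraicClosure F) ^ 2 - 1) * e') n2
  · exact m5.2 H

omit p in
theorem ord5 (x : ZMod 5) : orderOf x = 4 ↔ x = 2 ∨ x = 3 := by
  rw [orderOf_eq_iff (by omega)]; revert x; decide

omit p

variable {ι : Type} [Fintype ι] [DecidableEq ι]

theorem scalar_iff (g : GL ι F) :
    (∃ z : F, (g : Matrix ι ι F) = z • (1 : Matrix ι ι F)) ↔ Geom.glEquiv ι F g ∈ center _ := by
  rw [mem_center_iff_smul]
  refine exists_congr fun c => ⟨fun e v => by simp [Geom.glEquiv_apply, e, Matrix.smul_mulVec], fun e => ?_⟩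
  exact Matrix.toLin'.injective (LinearMap.ext fun v => by simpa [Geom.glEquiv_apply] using e v)

theorem el_GL {G R : Subgroup (GL ι F)} {G' : Subgroup ((ι → F) ≃ₗ[F] (ι → F))}
    (h : ∀ x, x ∈ G ↔ Geom.glEquiv ι F x ∈ G') {r : ℕ} [hr : Fact r.Prime] (hΩ : r ∣ (subgroupNormalizer R).relIndex G) :
    ((∀ x ∈ G, (∃ z : F, ((x ^ r : GL ι F) : Matrix ι ι F) = z • (1 : Matrix ι ι F)) →
      (∀ z : F, (x : Matrix ι ι F) ≠ z • (1 : Matrix ι ι F)) → ∃ g ∈ G, g⁻¹ * x * g ∈ subgroupNormalizer R) ↔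
      El G' (Nm (glP R)) r) ∧ ∃ x ∈ G', orderOf x = r := by
  constructor
  · simp only [El, (Geom.glEquiv ι F).surjective.forall, (Geom.glEquiv ι F).surjective.exists, ← h, ← map_pow, ← map_inv,
      ← map_mul, ← mem_Nm_glP, ← scalar_iff, not_exists]
  · obtain ⟨x, hx⟩ := exists_prime_orderOf_dvd_card' (G := G) r (hΩ.trans (relIndex_dvd_card _ _))
    exact ⟨_, (h x).1 x.2, by rw [MulEquiv.orderOf_eq, orderOf_coe, hx]⟩

end CF.XN
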