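import Mathlib

/-! Eigenspace counting lemmas for elements normalising a group of class two (linear algebra part). -/

set_option autoImplicit false

namespace CF.XN

open Module Polynomial

variable {F : Type*} [Field F] {V : Type*} [AddCommGroup V] [Module F V] [FiniteDimensional F V]

/-- eigenspaces for distinct eigenvalues inside `U` -/
theorem sum_le (f : End F V) (U : Submodule F V) {ι : Type*} (S : Finset ι) (μ : ι → F)
    (hμ : Set.InjOn μ S) : ∑ i ∈ S, finrank F ↥(f.eigenspace (μ i) ⊓ U) ≤ finrank F U := by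
  classical
  have key : ∀ T : Finset ι, T ⊆ S →
      ∑ i ∈ T, finrank F ↥(f.eigenspace (μ i) ⊓ U) ≤
        finrank F ↥((⨆ i ∈ T, f.eigenspace (μ i)) ⊓ U) := by
    intro T
    induction T using Finset.induction_on with
    | empty => simp
    | insert a T ha ih =>
      intro hT
      rw [Finset.sum_insert ha]
      have ih' := ih ((Finset.subset_insert _ _).trans hT)
      have hd : Disjoint (f.eigenspace (μ a)) (⨆ i ∈ T, f.eigenspace (μ i)) := by
        refine (f.eigenspaces_iSupIndep (μ a)).mono_right ?_
        refine iSup₂_le fun i hi => le_iSup₂_of_le (μ i) ?_ le_rfl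
        intro h
        have := hμ (hT (Finset.mem_insert_of_mem hi)) (hT (Finset.mem_insert_self _ _)) h
        exact ha (this ▸ hi)
      have hd' : (f.eigenspace (μ a) ⊓ U) ⊓ ((⨆ i ∈ T, f.eigenspace (μ i)) ⊓ U) = ⊥ :=
        disjoint_iff.1 (hd.mono inf_le_left inf_le_left)
      have h1 := Submodule.finrank_sup_add_finrank_inf_eq (f.eigenspace (μ a) ⊓ U)
        ((⨆ i ∈ T, f.eigenspace (μ i)) ⊓ U)
      rw [hd', finrank_bot] at h1
      have h2 : (f.eigenspace (μ a) ⊓ U) ⊔ ((⨆ i ∈ T, f.eigenspace (μ i)) ⊓ U) ≤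
          (⨆ i ∈ insert a T, f.eigenspace (μ i)) ⊓ U := by
        rw [Finset.iSup_insert]
        exact sup_le (inf_le_inf_right _ le_sup_left) (inf_le_inf_right _ le_sup_right)
      have := Submodule.finrank_mono h2
      omega
  exact (key S le_rfl).trans (Submodule.finrank_mono inf_le_right)

/-- an invariant subspace killed by a product of linear factors is covered by eigenspaces -/
theorem le_sum (d : End F V) (s : ℕ → F) (k : ℕ) : ∀ U : Submodule F V, (∀ u ∈ U, d u ∈ U) →
    (∀ u ∈ U, aeval d (∏ i ∈ Finset.range k, (X - C (s i))) u = 0) →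
    finrank F U ≤ ∑ i ∈ Finset.range k, finrank F ↥(d.eigenspace (s i) ⊓ U) := by
  induction k with
  | zero =>
    intro U _ h
    have : U = ⊥ := by
      rw [eq_bot_iff]; intro u hu
      simpa using h u hu
    simp [this]
  | succ k ih =>
    intro U hU h
    set e : End F V := d - algebraMap F (End F V) (s k) with he
    have hle : U.map e ≤ U := by
      rintro _ ⟨u, hu, rfl⟩
      simp only [he, LinearMap.sub_apply, Module.algebraMap_end_apply]
      exact U.sub_mem (hU u hu) (U.smul_mem _ hu)
    have h1 := ih (U.map e) (by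
      rintro _ ⟨u, hu, rfl⟩
      refine ⟨d u, hU u hu, ?_⟩
      simp [he]) (by
      rintro _ ⟨u, hu, rfl⟩
      have := h u hu
      rw [Finset.prod_range_succ, map_mul] at this
      simpa [he] using this)
    have h2 : ∑ i ∈ Finset.range k, finrank F ↥(d.eigenspace (s i) ⊓ U.map e) ≤
        ∑ i ∈ Finset.range k, finrank F ↥(d.eigenspace (s i) ⊓ U) :=
      Finset.sum_le_sum fun i _ => Submodule.finrank_mono (inf_le_inf_left _ hle)
    have h3 := (e.domRestrict U).finrank_range_add_finrank_ker
    rw [LinearMap.range_domRestrict, LinearMap.ker_domRestrict] at h3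
    have h4 : finrank F ↥((LinearMap.ker e).comap U.subtype) = finrank F ↥(d.eigenspace (s k) ⊓ U) := by
      rw [← Submodule.finrank_map_subtype_eq U, Submodule.map_comap_subtype, inf_comm,
        End.eigenspace_def]
      rfl
    rw [Finset.sum_range_succ]
    omega

theorem finrank_le_of_maps (f : End F V) (hf : Function.Injective f) {U W : Submodule F V}
    (h : ∀ u ∈ U, f u ∈ W) : finrank F U ≤ finrank F W := by
  have h1 : U.map f ≤ W := by
    rintro _ ⟨u, hu, rfl⟩; exact h u hu
  have h2 : finrank F U = finrank F (U.map f) :=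
    (Submodule.equivMapOfInjective f hf U).finrank_eq
  exact h2 ▸ Submodule.finrank_mono h1

theorem eig_zero (f : End F V) (hf : Function.Injective f) : f.eigenspace 0 = ⊥ := by
  rw [End.eigenspace_zero, LinearMap.ker_eq_bot]; exact hf

theorem shift {x y : End F V} {c : F} (h : y * x = c • (x * y)) {μ : F} {u : V}
    (hu : u ∈ y.eigenspace μ) : x u ∈ y.eigenspace (c * μ) := by
  rw [End.mem_eigenspace_iff] at hu ⊢
  have := congrArg (fun f : End F V => f u) h
  simp only [End.mul_apply, LinearMap.smul_apply, hu, map_smul] at this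
  rw [this, mul_smul]

theorem shift_pow {x y : End F V} (hx : Function.Injective x) {c : F} (h : y * x = c • (x * y))
    (μ : F) (k : ℕ) : finrank F (y.eigenspace μ) ≤ finrank F (y.eigenspace (c ^ k * μ)) := by
  induction k with
  | zero => rw [pow_zero, one_mul]
  | succ k ih =>
    refine ih.trans (finrank_le_of_maps x hx fun u hu => ?_)
    rw [pow_succ', mul_assoc]
    exact shift h hu

/-- if `x` twists `y` by a scalar whose first `k` powers are distinct, eigenspaces of `y` have dimension at
most `n / k` -/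
theorem mul_le {x y : End F V} (hx : Function.Injective x) (hy : Function.Injective y) {c : F}
    (h : y * x = c • (x * y)) (k : ℕ) (hc : Set.InjOn (fun i : ℕ => c ^ i) (Finset.range k)) (μ : F) :
    k * finrank F (y.eigenspace μ) ≤ finrank F V := by
  by_cases hμ : μ = 0
  · subst hμ; rw [eig_zero y hy]; simp
  have h1 := sum_le y ⊤ (Finset.range k) (fun i => c ^ i * μ)
    (fun i hi j hj hij => hc hi hj (mul_right_cancel₀ hμ hij))
  rw [finrank_top] at h1
  refine le_trans ?_ h1
  have := Finset.card_nsmul_le_sum (Finset.range k) (fun i => finrank F ↥(y.eigenspace (c ^ i * μ) ⊓ ⊤))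
    (finrank F (y.eigenspace μ)) (fun i _ => by rw [inf_top_eq]; exact shift_pow hx h μ i)
  rwa [Finset.card_range, smul_eq_mul] at this

theorem two_le {x y : End F V} (hx : Function.Injective x) (hy : Function.Injective y) {c : F}
    (h : y * x = c • (x * y)) (hc : c ≠ 1) (μ : F) : 2 * finrank F (y.eigenspace μ) ≤ finrank F V := by
  refine mul_le hx hy h 2 ?_ μ
  intro i hi j hj hij
  simp only [Finset.coe_range, Set.mem_Iio] at hi hj
  interval_cases i <;> interval_cases j <;> simp_all [eq_comm]

theorem prim_le {x y : End F V} (hx : Function.Injective x) (hy : Function.Injective y) {c : F} {r : ℕ}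
    (h : y * x = c • (x * y)) (hc : IsPrimitiveRoot c r) (μ : F) :
    r * finrank F (y.eigenspace μ) ≤ finrank F V :=
  mul_le hx hy h r (fun _ hi _ hj hij => hc.pow_inj (by simpa using hi) (by simpa using hj) hij) μ

theorem inter_le (U W : Submodule F V) :
    finrank F U + finrank F W ≤ finrank F V + finrank F ↥(U ⊓ W) := by
  have := Submodule.finrank_sup_add_finrank_inf_eq U W
  have := Submodule.finrank_le (U ⊔ W)
  omega

/-- triangular numbers are injective modulo an odd prime on each half -/
theorem tri_inj {r : ℕ} (hr : r.Prime) {j k : ℕ} (hj : j < r) (hk : k < r) (hs : j + k + 1 ≠ r)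
    (h : (∑ i ∈ Finset.range (j + 1), i) ≡ (∑ i ∈ Finset.range (k + 1), i) [MOD r]) : j = k := by
  wlog hjk : j ≤ k generalizing j k
  · exact (this hk hj (by omega) h.symm (by omega)).symm
  obtain ⟨e, rfl⟩ := Nat.exists_eq_add_of_le hjk
  have h2 := h.mul_right 2
  rw [Finset.sum_range_id_mul_two, Finset.sum_range_id_mul_two] at h2
  simp only [Nat.add_sub_cancel] at h2
  have h3 : (j + e + 1) * (j + e) = (j + 1) * j + e * (j + (j + e) + 1) := by ring
  rw [h3] at h2
  have h4 : r ∣ e * (j + (j + e) + 1) := by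
    have := (Nat.modEq_iff_dvd' (Nat.le_add_right _ _)).1 h2
    simpa using this
  rcases (Nat.Prime.dvd_mul hr).1 h4 with h5 | h5
  · rcases Nat.eq_zero_or_pos e with h0 | h0
    · omega
    · have := Nat.le_of_dvd h0 h5; omega
  · obtain ⟨t, ht⟩ := h5
    have : t < 2 := by
      by_contra hh
      have : r * 2 ≤ r * t := Nat.mul_le_mul_left _ (by omega)
      omega
    interval_cases t <;> omega

/-- the unipotent case: `g x = d x g` with `d` commuting with `g` -/
theorem count {g d x y : End F V} {r : ℕ} (hr : r.Prime) (h4 : 4 ≤ r) (hg : Function.Injective g)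
    (hd : Function.Injective d) (hx : Function.Injective x) (hy : Function.Injective y)
    {ζ ω : F} (hζ : IsPrimitiveRoot ζ r) (hdy : d * y = ζ • (y * d)) (hω : ω ^ r = 1)
    (hdx : d * x = ω • (x * d)) (hgd : g * d = d * g) (hgx : g * x = d * x * g) (hdr : d ^ r = 1) (c : F) :
    2 * finrank F (g.eigenspace c) ≤ finrank F V := by
  by_cases hc : c = 0
  · subst hc; rw [eig_zero g hg]; simp
  haveI : NeZero r := ⟨hr.ne_zero⟩
  let a : F → F → ℕ := fun δ μ => finrank F ↥(d.eigenspace δ ⊓ g.eigenspace μ)
  have hsh : ∀ δ μ, a δ μ ≤ a (ω * δ) (ω * δ * μ) := by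
    intro δ μ
    refine finrank_le_of_maps x hx fun u hu => ⟨shift hdx hu.1, ?_⟩
    have h1 := shift hdx hu.1
    have h2 := hu.2
    rw [SetLike.mem_coe, End.mem_eigenspace_iff] at h2 ⊢
    rw [End.mem_eigenspace_iff] at h1
    have := congrArg (fun f : End F V => f u) hgx
    simp only [End.mul_apply, h2, map_smul, h1] at this
    rw [this, smul_smul]; congr 1; ring
  have hcov : ∀ η : F, IsPrimitiveRoot η r →
      finrank F (g.eigenspace c) ≤ ∑ i ∈ Finset.range r, a (η ^ i) c := by
    intro η hη
    refine le_sum d (fun i => η ^ i) r _ (fun u hu => ?_) (fun u _ => ?_)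
    · have := shift (c := 1) (x := d) (y := g) (by rw [one_smul]; exact hgd) hu
      rwa [one_mul] at this
    · have := X_pow_sub_C_eq_prod hη (α := 1) (a := 1) hr.pos (one_pow _)
      simp only [mul_one] at this
      rw [← this]
      simp [hdr]
  have hm : ∀ δ, r * finrank F (d.eigenspace δ) ≤ finrank F V := prim_le hy hd hdy hζ
  have hsum : ∀ (δ : F) (S : Finset ℕ) (μ : ℕ → F), Set.InjOn μ S →
      r * ∑ i ∈ S, a δ (μ i) ≤ finrank F V := by
    intro δ S μ hμ
    refine le_trans (Nat.mul_le_mul_left _ ?_) (hm δ)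
    have := sum_le g (d.eigenspace δ) S μ hμ
    refine le_trans (le_of_eq (Finset.sum_congr rfl fun i _ => ?_)) this
    simp only [a]; rw [inf_comm]
  by_cases hω1 : ω = 1
  · subst hω1
    have h3 : ∀ i ∈ Finset.range (r - 1), 3 * (r * a (ζ ^ (i + 1)) c) ≤ finrank F V := by
      intro i hi
      rw [Finset.mem_range] at hi
      have hp : IsPrimitiveRoot (ζ ^ (i + 1)) r :=
        hζ.pow_of_coprime _ (Nat.Coprime.symm ((Nat.Prime.coprime_iff_not_dvd hr).2
          (Nat.not_dvd_of_pos_of_lt (by omega) (by omega))))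
      have h1 := hsum (ζ ^ (i + 1)) (Finset.range 3) (fun j => (ζ ^ (i + 1)) ^ j * c)
        (fun j hj k hk hjk => hp.pow_inj (by simp at hj; omega) (by simp at hk; omega)
          (mul_right_cancel₀ hc hjk))
      simp only [Finset.sum_range_succ, Finset.range_zero, Finset.sum_empty, pow_zero, one_mul,
        pow_one, zero_add] at h1
      have h2 := hsh (ζ ^ (i + 1)) c
      have h3 := hsh (ζ ^ (i + 1)) (ζ ^ (i + 1) * c)
      simp only [one_mul] at h2 h3
      rw [← mul_assoc, ← pow_two] at h3
      nlinarith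
    have h0 := hsum 1 (Finset.range 1) (fun _ => c) (by intro i hi j hj _; simp at hi hj; omega)
    simp only [Finset.sum_range_one] at h0
    have h1 := hcov ζ hζ
    obtain ⟨s, rfl⟩ : ∃ s, r = s + 1 := ⟨r - 1, by omega⟩
    rw [Finset.sum_range_succ', pow_zero] at h1
    have h5 := Finset.sum_le_card_nsmul _ _ _ h3
    simp only [Nat.add_sub_cancel, Finset.card_range, smul_eq_mul] at h5
    rw [← Finset.mul_sum, ← Finset.mul_sum] at h5
    nlinarith
  · have hp : IsPrimitiveRoot ω r := by
      have := orderOf_eq_prime hω hω1 (hp := ⟨hr⟩)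
      exact this ▸ IsPrimitiveRoot.orderOf ω
    have hω0 : ω ≠ 0 := hp.ne_zero hr.ne_zero
    -- the shift is an equality
    have hpow : ∀ (k : ℕ) (δ μ : F), a δ μ ≤ a (ω ^ k * δ)
        (ω ^ (∑ i ∈ Finset.range (k + 1), i) * δ ^ k * μ) := by
      intro k δ μ
      induction k with
      | zero => simp
      | succ k ih =>
        refine ih.trans ((hsh _ _).trans (le_of_eq ?_))
        congr 1
        · ring
        · rw [Finset.sum_range_succ _ (k + 1)]; ring
    have hk : ∀ k < r, a (ω ^ k) c ≤ a 1 (ω ^ (∑ i ∈ Finset.range (r + 1), i) * c *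
        (ω ^ (∑ i ∈ Finset.range (k + 1), i))⁻¹) := by
      intro k hk
      obtain ⟨e, he⟩ := Nat.exists_eq_add_of_le hk.le
      refine (hpow e _ _).trans (le_of_eq ?_)
      congr 1
      · rw [← pow_add, add_comm, ← he, hω]
      · have : (∑ i ∈ Finset.range (r + 1), i) = (∑ i ∈ Finset.range (e + 1), i) + k * e +
            (∑ i ∈ Finset.range (k + 1), i) := by
          have a1 := Finset.sum_range_id_mul_two (r + 1)
          have a2 := Finset.sum_range_id_mul_two (e + 1)
          have a3 := Finset.sum_range_id_mul_two (k + 1)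
          simp only [Nat.add_sub_cancel] at a1 a2 a3
          rw [he] at a1 ⊢
          nlinarith
        rw [this]
        field_simp
        ring
    have hinj : ∀ S : Finset ℕ, (∀ j ∈ S, j < r) → (∀ j ∈ S, ∀ k ∈ S, j ≠ k → j + k + 1 ≠ r) →
        r * ∑ k ∈ S, a (ω ^ k) c ≤ finrank F V := by
      intro S h1 h2
      refine le_trans (Nat.mul_le_mul_left _ (Finset.sum_le_sum fun k hk' => hk k (h1 k hk')))
        (hsum 1 S _ ?_)
      intro j hj k hk' hjk
      by_contra hne
      have h5 := inv_injective (mul_left_cancel₀ (mul_ne_zero (pow_ne_zero _ hω0) hc) hjk)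
      refine hne (tri_inj hr (h1 j hj) (h1 k hk') (h2 j hj k hk' hne) ?_)
      have h6 := hp.pow_inj (Nat.mod_lt (∑ i ∈ Finset.range (j + 1), i) hr.pos)
        (Nat.mod_lt (∑ i ∈ Finset.range (k + 1), i) hr.pos)
        (by rw [← pow_eq_pow_mod _ hω, ← pow_eq_pow_mod _ hω, h5])
      exact h6
    have h1 := hinj (Finset.range (r / 2)) (by intro j hj; simp at hj; omega)
      (by intro j hj k hk _; simp at hj hk; omega)
    have h2 := hinj (Finset.Ico (r / 2) r) (by intro j hj; simp at hj; omega)
      (by intro j hj k hk _; simp at hj hk; omega)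
    have h3 := hcov ω hp
    rw [← Finset.sum_range_add_sum_Ico _ (Nat.div_le_self r 2)] at h3
    nlinarith

end CF.XN
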