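import Cfsg.Agent.MaxSub.C6R

/-! Elements of the normaliser of a Pauli group in dimension four: fixed points, traces, examples. -/

set_option autoImplicit false
set_option linter.unusedSectionVars false

namespace CF.MaxSub

open Module Subgroup Geom

section Grp

variable {G : Type*} [Group G] [Finite G] {P : Subgroup G} {z : G} {γ : G → G}

theorem PG.comm_of_odd (h : PG P z γ) {g x : G} {r : ℕ} (hr : Odd r) (e : g ^ r = 1) (p : PM z g x) :
    g * x = x * g := by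
  refine p.elim id fun p => ?_
  have k : ∀ n : ℕ, g ^ n * x = z ^ n * (x * g ^ n) := by
    intro n
    induction n with
    | zero => simp
    | succ n ih =>
      rw [pow_succ' g, mul_assoc, ih, ← mul_assoc, mem_center_iff.1 (pow_mem h.cen n) g, mul_assoc,
        ← mul_assoc g, p, pow_succ z]
      simp only [mul_assoc]
  have := k r
  obtain ⟨m, rfl⟩ := hr
  rw [e, one_mul, mul_one, pow_succ z, pow_mul, pow_two, h.zz, one_pow, one_mul] at this
  exact absurd (mul_eq_right.1 this.symm) h.ne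

theorem PG.card_W4 (h : PG P z γ) (h4 : finrank (ZMod 2) h.W = 4) : Nat.card h.W = 16 := by
  rw [Module.natCard_eq_pow_finrank (K := ZMod 2), h4]; simp

/-- the number of fixed vectors of an element of odd prime order -/
theorem PG.card_fix (h : PG P z γ) (h4 : finrank (ZMod 2) h.W = 4) (a : Nm P) {r : ℕ} (hr : r.Prime)
    (r2 : r ≠ 2) (e : h.ρ a ^ r = 1) (n : h.ρ a ≠ 1) :
    (r = 3 ∧ (Nat.card {w // h.ρ a w = w} = 1 ∨ Nat.card {w // h.ρ a w = w} = 4)) ∨
      (r = 5 ∧ Nat.card {w // h.ρ a w = w} = 1) := by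
  classical
  haveI := Fact.mk hr
  haveI := Fintype.ofFinite h.W
  set U := LinearMap.ker (h.ρ a - 1) with hU
  have hm : ∀ w, w ∈ U ↔ h.ρ a w = w := fun w => by simp [hU, sub_eq_zero]
  have c1 : Nat.card {w // h.ρ a w = w} = 2 ^ finrank (ZMod 2) U := by
    rw [← Nat.card_congr (Equiv.subtypeEquivRight hm), Module.natCard_eq_pow_finrank (K := ZMod 2) (V := U)]
    simp
  have c2 : finrank (ZMod 2) U < 4 := by
    rw [← h4]
    refine Submodule.finrank_lt fun e' => n (LinearMap.ext fun w => (hm w).1 (e' ▸ Submodule.mem_top))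
  have c3 : 16 ≡ 2 ^ finrank (ZMod 2) U [MOD r] := by
    have := Equiv.Perm.card_fixedPoints_modEq (α := h.W) (f := fun w => h.ρ a w) (p := r) (n := 1) (by
      refine (hom_coe_pow (fun g : Function.End h.W ↦ g) rfl (fun _ _ ↦ rfl) _ _).trans (funext fun w => ?_)
      exact (End.pow_apply _ _ _).symm.trans (by rw [pow_one, e]; rfl))
    rw [← c1, ← h.card_W4 h4, Nat.card_eq_fintype_card, Nat.card_eq_fintype_card]
    exact this
  have c4 : finrank (ZMod 2) U ≠ 1 := by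
    intro e1
    obtain ⟨⟨v, hv⟩, v0, hs⟩ := finrank_eq_one_iff'.1 e1
    have v0' : v ≠ 0 := fun e => v0 (Subtype.ext e)
    obtain ⟨y, hy⟩ : ∃ y, h.β v y ≠ 0 := by
      by_contra! hc; exact v0' (h.β_sep hc)
    have k : ∀ i : ℕ, h.β v ((h.ρ a ^ i) y) = 1 := by
      intro i
      induction i with
      | zero => exact z2_ne.1 hy
      | succ i ih => rw [pow_succ', End.mul_apply, ← ih, ← h.ρ_β a v ((h.ρ a ^ i) y), (hm v).1 hv]
    obtain ⟨c, hc⟩ := hs ⟨∑ i ∈ Finset.range r, (h.ρ a ^ i) y, by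
      rw [hU, LinearMap.mem_ker, ← LinearMap.sum_apply, ← End.mul_apply, mul_geom_sum, e, sub_self]; rfl⟩
    have := congrArg (fun w : U => h.β v w.1) hc
    simp only [SetLike.val_smul, map_smul, h.β_self, smul_zero, map_sum, k, Finset.sum_const,
      Finset.card_range, nsmul_eq_mul, mul_one] at this
    obtain ⟨m, rfl⟩ := hr.odd_of_ne_two r2
    rw [Nat.cast_add, Nat.cast_mul, show ((2 : ℕ) : ZMod 2) = 0 from rfl] at this
    simp at this
  rw [c1]
  have c5 := (Nat.modEq_iff_dvd' (Nat.pow_le_pow_right two_pos c2.le)).1 c3.symm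
  have p3 : ∀ {s : ℕ}, s.Prime → r ∣ s → r = s := fun hs => (Nat.prime_dvd_prime_iff_eq hr hs).1
  interval_cases finrank (ZMod 2) U
  · rcases (Nat.Prime.dvd_mul hr).1 (show r ∣ 3 * 5 from c5) with c | c
    · exact .inl ⟨p3 Nat.prime_three c, .inl rfl⟩
    · exact .inr ⟨p3 Nat.prime_five c, rfl⟩
  · exact absurd rfl c4
  · rcases (Nat.Prime.dvd_mul hr).1 (show r ∣ 3 * 2 ^ 2 from c5) with c | c
    · exact .inl ⟨p3 Nat.prime_three c, .inr rfl⟩
    · exact absurd (p3 Nat.prime_two (hr.dvd_of_dvd_pow c)) r2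
  · exact absurd (p3 Nat.prime_two (hr.dvd_of_dvd_pow (show r ∣ 2 ^ 3 from c5))) r2

theorem PG.rho_ne_one (h : PG P z γ) {g : G} (hg : g ∈ Nm P) {r : ℕ} (hr : Odd r) (e : g ^ r = 1)
    (g0 : g ∉ center G) : h.ρ ⟨g, hg⟩ ≠ 1 := fun e1 =>
  g0 (h.schur g fun x hx => h.comm_of_odd hr e ((h.ρ_fix hg hx).1 (by rw [e1]; rfl)))

/-- an element of order three permuting five classes fixes one of them -/
theorem PG.fix_of_five (h : PG P z γ) {x : Fin 5 → G} (a : AC P x)
    (hx : ∀ y ∈ P, y * y = 1 → y ∉ center G → ∃ i, h.cl y = h.cl (x i)) {g : G} (hg : g ∈ Nm P)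
    (e : g ^ 3 = 1) : Nat.card {w // h.ρ ⟨g, hg⟩ w = w} ≠ 1 := by
  have nc : ∀ i, x i ∉ center G := fun i => by
    obtain ⟨j, hj⟩ := exists_ne i
    exact notMem_center_of_bt (a.anti i j hj.symm)
  have inj : ∀ i j, h.cl (x i) = h.cl (x j) → i = j := fun i j e => by
    by_contra ne
    have := a.anti i j ne
    rw [h.bt_congr (a.mem i) (a.mem j) e, bt_self] at this
    exact zero_ne_one this
  choose π hπ using fun i => hx (g * x i * g⁻¹) (Nm_conj hg (a.mem i)) (by rw [conj_mul, a.sq]; simp)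
    (by rw [conj_mem_center_iff]; exact nc i)
  have k : ∀ i, h.ρ ⟨g, hg⟩ (h.cl (x i)) = h.cl (x (π i)) := fun i => (h.ρ_cl hg (a.mem i)).trans (hπ i)
  have k3 : ∀ i, π (π (π i)) = i := fun i => inj _ _ (by
    rw [← k, ← k, ← k, ← End.mul_apply, ← End.mul_apply, ← map_mul, ← map_mul]
    have : (⟨g, hg⟩ * ⟨g, hg⟩ * ⟨g, hg⟩ : Nm P) = 1 := Subtype.ext (by simpa [pow_succ] using e)
    rw [this, map_one]; rfl)
  obtain ⟨i, hi⟩ : ∃ i, π i = i := by
    haveI : Fact (Nat.Prime 3) := ⟨Nat.prime_three⟩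
    have := Equiv.Perm.card_fixedPoints_modEq (α := Fin 5) (f := π) (p := 3) (n := 1) (by
      funext i; exact k3 i)
    by_contra! hc
    rw [Fintype.card_eq_zero_iff (α := Function.fixedPoints π) |>.2 ⟨fun i => hc i.1 i.2⟩] at this
    exact absurd this (by decide)
  intro e1
  have := (Nat.card_eq_one_iff_unique.1 e1).1.elim ⟨h.cl (x i), by rw [k, hi]⟩ ⟨0, map_zero _⟩
  exact nc i ((h.cl_eq_zero (a.mem i)).1 (congrArg Subtype.val this))

theorem PG.exists_SB_qd (h : PG P z γ) (h3 : 3 < finrank (ZMod 2) h.W) {j : G} (hj : j ∈ P)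
    (jc : j ∈ center G) (jj : j * j = z) (c₁ c₂ c₃ c₄ : ZMod 2) :
    ∃ a a' b b', SB P a a' b b' ∧ qd a = c₁ ∧ qd a' = c₂ ∧ qd b = c₃ ∧ qd b' = c₄ := by
  obtain ⟨a, a', b, b', s, -, -⟩ := h.exists_SB h3
  obtain ⟨u, m1, q1, e1⟩ := h.exists_qd_cl hj jc jj s.ma c₁
  obtain ⟨u', m2, q2, e2⟩ := h.exists_qd_cl hj jc jj s.ma' c₂
  obtain ⟨v, m3, q3, e3⟩ := h.exists_qd_cl hj jc jj s.mb c₃
  obtain ⟨v', m4, q4, e4⟩ := h.exists_qd_cl hj jc jj s.mb' c₄
  refine ⟨u, u', v, v', ⟨m1, m2, m3, m4, ?_, ?_, ?_, ?_, ?_, ?_⟩, q1, q2, q3, q4⟩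
  · rw [← h.β_cl m1 m2, e1, e2, h.β_cl s.ma s.ma', s.aa]
  · rw [← h.β_cl m3 m4, e3, e4, h.β_cl s.mb s.mb', s.bb]
  · rw [← h.β_cl m1 m3, e1, e3, h.β_cl s.ma s.mb, s.ab]
  · rw [← h.β_cl m1 m4, e1, e4, h.β_cl s.ma s.mb', s.ab']
  · rw [← h.β_cl m2 m3, e2, e3, h.β_cl s.ma' s.mb, s.a'b]
  · rw [← h.β_cl m2 m4, e2, e4, h.β_cl s.ma' s.mb', s.a'b']

theorem PG.exists_ac (h : PG P z γ) (h4 : finrank (ZMod 2) h.W = 4) {j : G} (hj : j ∈ P)
    (jc : j ∈ center G) (jj : j * j = z) : ∃ x : Fin 5 → G, AC P x ∧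
    ∀ K : Subgroup G, (∀ c ∈ P, c ∈ center G → c ∈ K) → (∀ i, x i ∈ K) → P ≤ K := by
  obtain ⟨a, a', b, b', s, q, q', qb, qb'⟩ := h.exists_SB_qd (by omega) hj jc jj 0 0 1 1
  obtain ⟨m1, m2, m3, m4, e1, e2, e3, e4, e5, e6⟩ := id s
  have m5 := mul_mem m1 m2
  have m6 := mul_mem m5 m3
  have ac : AC P ![a, a', a * a' * b, a * a' * b', a * a' * b * b'] := by
    refine ⟨fun i => ?_, fun i => qd_eq_zero.1 ?_, fun i j ij => ?_⟩
    · fin_cases i <;> simp [mul_mem, *]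
    · fin_cases i <;> simp [h.qd_mul, h.bt_mul, mul_mem, *] <;> rfl
    · fin_cases i <;> fin_cases j <;> simp at ij <;>
        simp [h.bt_mul, h.bt_mul', mul_mem, bt_self, bt_comm a' a, bt_comm b a, bt_comm b' a,
          bt_comm b a', bt_comm b' a', bt_comm b' b, z2_add_self, *]
  refine ⟨_, ac, fun K hc hK => ?_⟩
  have := mul_mem (hK 0) (hK 1)
  exact h.gen h4 s hc (hK 0) (hK 1) ((mul_mem_cancel_left this).1 (hK 2))
    ((mul_mem_cancel_left this).1 (hK 3))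

/-- a five-cycle -/
theorem HC.exists_five_cycle {H : Subgroup G} (h : HC P H z γ) {x : Fin 5 → G} (a : AC P x)
    (gen : ∀ K : Subgroup G, (∀ c ∈ P, c ∈ center G → c ∈ K) → (∀ i, x i ∈ K) → P ≤ K) :
    ∃ g ∈ H, g ∉ center G ∧ g ^ 5 ∈ center G := by
  have m : ∀ i j k : Fin 5, i ≠ j → j ≠ k → γ (x j * x i) * (γ (x j * x k))⁻¹ ∈ H := fun i j k ij jk =>
    h.gate _ (mul_mem (a.mem j) (a.mem i)) _ (mul_mem (a.mem j) (a.mem k)) (a.sq2 h.toPG ij.symm)
      (a.sq2 h.toPG jk) (a.nc h.toPG ij.symm) (a.nc h.toPG jk)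
  obtain ⟨a1, a2, a3, a4⟩ := a.cyc h.toPG (i := 0) (j := 1) (k := 2) (by decide) (by decide) (by decide) rfl
  obtain ⟨b1, b2, b3, b4⟩ := a.cyc h.toPG (i := 2) (j := 3) (k := 4) (by decide) (by decide) (by decide) rfl
  have m1 := m 0 1 2 (by decide) (by decide)
  have m2 := m 2 3 4 (by decide) (by decide)
  generalize γ (x 1 * x 0) * (γ (x 1 * x 2))⁻¹ = u at a1 a2 a3 a4 m1
  generalize γ (x 3 * x 2) * (γ (x 3 * x 4))⁻¹ = v at b1 b2 b3 b4 m2
  have k : ∀ i : Fin 5, u * v * x i * (u * v)⁻¹ = x (i + 1) := by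
    have c : ∀ y, u * v * y * (u * v)⁻¹ = u * (v * y * v⁻¹) * u⁻¹ := fun y => by group
    intro i
    rw [c]
    fin_cases i
    · exact (congrArg (u * · * u⁻¹) (b4 0 (by decide) (by decide) (by decide))).trans a1
    · exact (congrArg (u * · * u⁻¹) (b4 1 (by decide) (by decide) (by decide))).trans a2
    · exact (congrArg (u * · * u⁻¹) b1).trans (a4 3 (by decide) (by decide) (by decide))
    · exact (congrArg (u * · * u⁻¹) b2).trans (a4 4 (by decide) (by decide) (by decide))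
    · exact (congrArg (u * · * u⁻¹) b3).trans a3
  refine ⟨u * v, mul_mem m1 m2, fun hc => ?_, h.schur _ fun y hy => ?_⟩
  · have := k 0
    rw [← mem_center_iff.1 hc, mul_inv_cancel_right] at this
    have e := a.anti 0 1 (by decide)
    rw [this, show (0 : Fin 5) + 1 = 1 from rfl, bt_self] at e
    exact zero_ne_one e
  · refine (mem_centralizer_singleton_iff.1 (gen (centralizer {(u * v) ^ 5})
      (fun c _ hc => mem_centralizer_singleton_iff.2 (mem_center_iff.1 hc _).symm)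
      (fun i => mem_centralizer_singleton_iff.2 ?_) hy)).symm
    generalize u * v = w at k
    have : w ^ 5 * x i * (w ^ 5)⁻¹ = x (i + 1 + 1 + 1 + 1 + 1) := by
      rw [← k, ← k, ← k, ← k, ← k]; simp only [pow_succ, pow_zero, one_mul, mul_inv_rev, mul_assoc]
    rw [(by decide : ∀ i : Fin 5, i + 1 + 1 + 1 + 1 + 1 = i), mul_inv_eq_iff_eq_mul] at this
    exact this.symm

end Grp

variable {F V : Type*} [Field F] [AddCommGroup V] [Module F V] {P : Subgroup (V ≃ₗ[F] V)} [Finite F]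
  [Finite V]

/-- the trace of a linear automorphism -/
noncomputable abbrev trE (g : V ≃ₗ[F] V) : F := LinearMap.trace F V g

theorem trE_conj (a g : V ≃ₗ[F] V) : trE (a * g * a⁻¹) = trE g :=
  (congrArg (LinearMap.trace F V) (LinearMap.ext fun _ => rfl)).trans (LinearMap.trace_conj' (g : End F V) a)

theorem trE_eq_zero (h2 : (2 : F) ≠ 0) {f : End F V} (t : V ≃ₗ[F] V) (e : ∀ v, t (f v) = -f (t v)) :
    LinearMap.trace F V f = 0 := by
  have e2 := LinearMap.trace_conj' f t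
  rw [show t.conj f = -f from LinearMap.ext fun v => by simp [LinearEquiv.conj_apply, e], map_neg] at e2
  exact (mul_eq_zero.1 (by linear_combination -e2)).resolve_left h2

namespace PaL

variable (h : PaL P)
include h

theorem dim4 (h4 : finrank (ZMod 2) h.pg.W = 4) : finrank F V = 4 := by
  have := h.finrank_sq
  rw [h4] at this
  exact Nat.pow_left_injective two_ne_zero (this.trans (by norm_num))

theorem trE_one (h4 : finrank (ZMod 2) h.pg.W = 4) : trE (1 : V ≃ₗ[F] V) = 4 := by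
  rw [trE, LinearEquiv.coe_toLinearMap_one, LinearMap.trace_id, h.dim4 h4]; norm_num

/-- the trace formula -/
theorem tr_mul_tr (h4 : finrank (ZMod 2) h.pg.W = 4) {g : V ≃ₗ[F] V} (hg : g ∈ Nm P) {r : ℕ} (hr : Odd r)
    (e : g ^ r = 1) : trE g * trE g⁻¹ = (Nat.card {w // h.pg.ρ ⟨g, hg⟩ w = w} : F) := by
  classical
  haveI := Fintype.ofFinite h.pg.W
  have hV := h.dim4 h4
  have c4 : (4 : F) ≠ 0 := by rw [show (4 : F) = 2 * 2 by norm_num]; exact mul_ne_zero h.two h.two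
  let A : h.pg.W → V ≃ₗ[F] V := fun w => h.pg.out w * g * (h.pg.out w)⁻¹
  have hA : ∀ x ∈ P, A (h.pg.cl x) = x * g * x⁻¹ := fun x hx => by
    have := mem_center_iff.1 ((h.pg.cl_eq (h.pg.out_mem _) hx).1 (h.pg.cl_out (h.pg.cl x))) (x * g * x⁻¹)
    simp only [A]
    generalize h.pg.out (h.pg.cl x) = y at this
    calc y * g * y⁻¹ = (y * x⁻¹ * (x * g * x⁻¹)) * (y * x⁻¹)⁻¹ := by group
      _ = _ := by rw [← this]; group
  obtain ⟨c, hc⟩ := h.scalar (f := ∑ w, (A w : End F V)) fun x hx v => by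
    simp only [LinearMap.sum_apply, map_sum, LinearEquiv.coe_coe]
    refine Fintype.sum_equiv (Equiv.addLeft (h.pg.cl x⁻¹)) _ _ fun w => ?_
    have : A (h.pg.cl x⁻¹ + w) = x⁻¹ * A w * x := by
      conv_lhs => rw [← h.pg.cl_out w, ← h.pg.cl_mul (inv_mem hx) (h.pg.out_mem w),
        hA _ (mul_mem (inv_mem hx) (h.pg.out_mem w))]
      simp only [A]; group
    rw [Equiv.coe_addLeft, this]
    simp only [LinearEquiv.mul_apply, apply_inv_apply]
  have hc' : ∑ w, (A w : End F V) = c • 1 := LinearMap.ext hc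
  have t1 := congrArg (LinearMap.trace F V) hc'
  rw [map_sum, map_smul, LinearMap.trace_one, hV, Finset.sum_congr rfl fun w _ => trE_conj _ g,
    Finset.sum_const, Finset.card_univ, ← Nat.card_eq_fintype_card, h.pg.card_W4 h4] at t1
  have t2 := congrArg (fun f => LinearMap.trace F V (f * ((g⁻¹ : V ≃ₗ[F] V) : End F V))) hc'
  simp only [Finset.sum_mul, map_sum, smul_mul_assoc, one_mul, map_smul] at t2
  have t3 : ∀ w, LinearMap.trace F V ((A w : End F V) * ((g⁻¹ : V ≃ₗ[F] V) : End F V)) =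
      if h.pg.ρ ⟨g, hg⟩ w = w then 4 else 0 := fun w => by
    have m := h.pg.out_mem w
    change trE (A w * g⁻¹) = _
    split_ifs with hw
    · rw [← h.pg.cl_out w, h.pg.ρ_fix hg m] at hw
      rw [show A w * g⁻¹ = 1 by simp only [A]; rw [← h.pg.comm_of_odd hr e hw]; group]
      exact h.trE_one h4
    · have m' : A w * g⁻¹ = h.pg.out w * (g * h.pg.out w * g⁻¹)⁻¹ := by simp only [A]; group
      rw [m']
      refine h.trace_eq_zero (mul_mem m (inv_mem (Nm_conj hg m))) fun hc => hw ?_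
      rw [← h.pg.cl_eq m (Nm_conj hg m), ← h.pg.ρ_cl hg m, h.pg.cl_out] at hc
      exact hc.symm
  simp only [t3, Finset.sum_ite, Finset.sum_const, smul_zero, add_zero, nsmul_eq_mul, smul_eq_mul] at t2 t1
  rw [Nat.card_eq_fintype_card, Fintype.card_subtype]
  refine mul_left_cancel₀ (mul_ne_zero c4 c4) ?_
  push_cast at t1
  linear_combination trE g⁻¹ * t1 - 4 * t2

theorem tr_cases (h4 : finrank (ZMod 2) h.pg.W = 4) {g : V ≃ₗ[F] V} (hg : g ∈ Nm P) {r : ℕ}
    (hr : r.Prime) (r2 : r ≠ 2) (e : g ^ r = 1) (g0 : g ∉ center _) :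
    (r = 3 ∧ (trE g * trE g⁻¹ = 1 ∨ trE g * trE g⁻¹ = 4)) ∨ (r = 5 ∧ trE g * trE g⁻¹ = 1) := by
  have ho := hr.odd_of_ne_two r2
  rw [h.tr_mul_tr h4 hg ho e]
  rcases h.pg.card_fix h4 ⟨g, hg⟩ hr r2 (by rw [← map_pow, show (⟨g, hg⟩ : Nm P) ^ r = 1 from Subtype.ext e,
    map_one]) (h.pg.rho_ne_one hg ho e g0) with ⟨a, b | b⟩ | ⟨a, b⟩ <;> simp [a, b]

theorem tr_minus (h4 : finrank (ZMod 2) h.pg.W = 4) {x : Fin 5 → V ≃ₗ[F] V} (a : AC P x)
    (hx : ∀ y ∈ P, y * y = 1 → y ∉ center _ → ∃ i, h.pg.cl y = h.pg.cl (x i)) {g : V ≃ₗ[F] V}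
    (hg : g ∈ Nm P) (e : g ^ 3 = 1) (g0 : g ∉ center _) : trE g * trE g⁻¹ = 4 := by
  have ho : Odd 3 := by decide
  rw [h.tr_mul_tr h4 hg ho e]
  rcases h.pg.card_fix h4 ⟨g, hg⟩ Nat.prime_three (by decide) (by
    rw [← map_pow, show (⟨g, hg⟩ : Nm P) ^ 3 = 1 from Subtype.ext e, map_one])
    (h.pg.rho_ne_one hg ho e g0) with ⟨-, b | b⟩ | ⟨c, -⟩
  · exact absurd b (h.pg.fix_of_five a hx hg e)
  · simp [b]
  · omega

variable {y y' : V ≃ₗ[F] V}

theorem s_apply (yy : y * y = ng F V) (yy' : y' * y' = ng F V) (v : V) :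
    (ng F V * (gm1 y * (gm1 y')⁻¹)) v = -(2 : F)⁻¹ • (v + y v - y' v - y (y' v)) := by
  rw [ng_mul_apply, LinearEquiv.mul_apply, gm1_apply h.two yy, gm1_inv_apply h.two yy']
  simp only [map_smul, map_sub]; module

theorem s_cube (yy : y * y = ng F V) (yy' : y' * y' = ng F V) (e : y' * y = ng F V * (y * y')) :
    (ng F V * (gm1 y * (gm1 y')⁻¹)) ^ 3 = 1 := by
  have h2 := h.two
  refine LinearEquiv.ext fun v => ?_
  rw [pow_three, LinearEquiv.mul_apply, LinearEquiv.mul_apply (g := ng F V * _), h.s_apply yy yy',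
    h.s_apply yy yy', h.s_apply yy yy']
  simp only [map_smul, map_sub, map_add, map_neg, anti_apply e, sq_apply yy, sq_apply yy', LinearEquiv.coe_one,
    id]
  match_scalars <;> field_simp <;> ring

theorem s_trace (yy : y * y = ng F V) (yy' : y' * y' = ng F V) (e : y' * y = ng F V * (y * y'))
    {b : V ≃ₗ[F] V} (b1 : b * y = y * b) (b2 : b * y' = y' * b) :
    trE (ng F V * (gm1 y * (gm1 y')⁻¹) * b) = -(2 : F)⁻¹ * trE b := by
  have e' : ∀ v, y (y' v) = -y' (y v) := fun v => by rw [anti_apply e, neg_neg]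
  have : ((ng F V * (gm1 y * (gm1 y')⁻¹) * b : V ≃ₗ[F] V) : End F V) = -(2 : F)⁻¹ • ((b : End F V) +
      ((y * b : V ≃ₗ[F] V) : End F V) - ((y' * b : V ≃ₗ[F] V) : End F V) - ((y * y' * b : V ≃ₗ[F] V) : End F V)) :=
    LinearMap.ext fun v => by
      change (ng F V * (gm1 y * (gm1 y')⁻¹)) (b v) = _
      rw [h.s_apply yy yy']; rfl
  rw [trE, this, map_smul, map_sub, map_sub, map_add,
    trE_eq_zero h.two (f := (y * b : V ≃ₗ[F] V)) y' fun v => by simp [anti_apply e, comm_apply b2],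
    trE_eq_zero h.two (f := (y' * b : V ≃ₗ[F] V)) y fun v => by simp [e', comm_apply b1],
    trE_eq_zero h.two (f := (y * y' * b : V ≃ₗ[F] V)) y fun v => by
      simp [anti_apply e, comm_apply b1, sq_apply yy]]
  simp

omit h in
theorem comm_gm1 (h2 : (2 : F) ≠ 0) (yy : y * y = ng F V) {b : V ≃ₗ[F] V} (e : b * y = y * b) :
    Commute b (gm1 y) := LinearEquiv.ext fun v => by
  simp [gm1_apply h2 yy, comm_apply e]

/-- the two kinds of elements of order three -/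
theorem exists_three {H : Subgroup (V ≃ₗ[F] V)} (hH : HC P H (ng F V) gm1)
    (h4 : finrank (ZMod 2) h.pg.W = 4) {j : V ≃ₗ[F] V} (hj : j ∈ P) (jc : j ∈ center _)
    (jj : j * j = ng F V) : (∃ g ∈ H, g ^ 3 = 1 ∧ trE g = -2) ∧ ∃ g ∈ H, g ^ 3 = 1 ∧ trE g = 1 := by
  obtain ⟨a, a', b, b', s, q1, q2, q3, q4⟩ := h.pg.exists_SB_qd (by omega) hj jc jj 1 1 1 1
  have aa := h.pg.sq_z s.ma q1
  have aa' := h.pg.sq_z s.ma' q2
  have bb := h.pg.sq_z s.mb q3
  have bb' := h.pg.sq_z s.mb' q4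
  have ea := h.pg.anti (h.pg.pm s.ma' s.ma) (bt_comm a a' ▸ s.aa)
  have eb := h.pg.anti (h.pg.pm s.mb' s.mb) (bt_comm b b' ▸ s.bb)
  have ma := mul_mem (hH.le h.neg) (hH.gate a s.ma a' s.ma' aa aa' (notMem_center_of_bt s.aa)
    (notMem_center_of_bt (bt_comm a a' ▸ s.aa)))
  have mb := mul_mem (hH.le h.neg) (hH.gate b s.mb b' s.mb' bb bb' (notMem_center_of_bt s.bb)
    (notMem_center_of_bt (bt_comm b b' ▸ s.bb)))
  have h2 := h.two
  have t : trE (ng F V * (gm1 b * (gm1 b')⁻¹)) = -2 := by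
    have := h.s_trace bb bb' eb (b := 1) (by simp) (by simp)
    rw [mul_one, h.trE_one h4] at this
    rw [this]; field_simp; norm_num
  have c : ∀ u, u * b = b * u → u * b' = b' * u → Commute u (ng F V * (gm1 b * (gm1 b')⁻¹)) :=
    fun u e e' => (show Commute u (ng F V) from mem_center_iff.1 ng_cen u).mul_right
      ((comm_gm1 h2 bb e).mul_right (comm_gm1 h2 bb' e').inv_right)
  have ca := c a (bt_eq_zero.1 s.ab) (bt_eq_zero.1 s.ab')
  have ca' := c a' (bt_eq_zero.1 s.a'b) (bt_eq_zero.1 s.a'b')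
  refine ⟨⟨_, mb, h.s_cube bb bb' eb, t⟩, _, mul_mem ma mb, ?_, ?_⟩
  · rw [Commute.mul_pow, h.s_cube aa aa' ea, h.s_cube bb bb' eb, one_mul]
    exact ((show Commute _ (ng F V) from mem_center_iff.1 ng_cen _).mul_right
      ((comm_gm1 h2 aa ca.symm).mul_right (comm_gm1 h2 aa' ca'.symm).inv_right)).symm
  · rw [h.s_trace aa aa' ea ca.symm ca'.symm, t]; field_simp

/-- a reflection normalising `P` -/
theorem exists_refl (h4 : finrank (ZMod 2) h.pg.W = 4) {j : V ≃ₗ[F] V} (hj : j ∈ P) (jc : j ∈ center _)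
    (jj : j * j = ng F V) : ∃ g ∈ Nm P, g * g = 1 ∧ g ∉ center _ ∧ trE g = 2 ∧
      ∀ {σ : F →+* F} {B : V →ₛₗ[σ] V →ₗ[F] F}, P ≤ UG B → g ∈ UG B := by
  obtain ⟨a, a', b, b', s, q1, -, q3, -⟩ := h.pg.exists_SB_qd (by omega) hj jc jj 0 0 0 0
  have aa := invol_apply (qd_eq_zero.1 q1)
  have bb := invol_apply (qd_eq_zero.1 q3)
  have ba := comm_apply (bt_eq_zero.1 s.ab).symm
  have h2 := h.two
  let f : End F V := (2 : F)⁻¹ • (1 + a + b - (a * b : V ≃ₗ[F] V))
  have hf : ∀ v, f v = (2 : F)⁻¹ • (v + a v + b v - a (b v)) := fun v => rfl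
  have ff : Function.Involutive f := fun v => by
    simp only [hf, map_smul, map_sub, map_add, aa, bb, ba]
    match_scalars <;> field_simp <;> ring
  let g := LinearEquiv.ofInvolutive f ff
  have hg : ∀ v, g v = (2 : F)⁻¹ • (v + a v + b v - a (b v)) := fun v => rfl
  have gg : g * g = 1 := LinearEquiv.ext ff
  have k : ∀ t ∈ P, (bt t a = 0 → bt t b = 0 → g * t = t * g) ∧ (bt t a = 1 → bt t b = 0 → g * t = t * b * g) ∧
      (bt t a = 0 → bt t b = 1 → g * t = t * a * g) ∧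
      (bt t a = 1 → bt t b = 1 → g * t = ng F V * t * a * b * g) := fun t ht => by
    have c0 : ∀ u ∈ P, bt t u = 0 → ∀ v, u (t v) = t (u v) := fun u _ e => comm_apply (bt_eq_zero.1 e).symm
    have c1 : ∀ u ∈ P, bt t u = 1 → ∀ v, u (t v) = -t (u v) := fun u hu e =>
      anti_apply (h.pg.anti (h.pg.pm hu ht) (bt_comm t u ▸ e))
    refine ⟨fun e e' => ?_, fun e e' => ?_, fun e e' => ?_, fun e e' => ?_⟩ <;>
      refine LinearEquiv.ext fun v => ?_ <;>
      first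
      | (have e1 := c0 a s.ma e)
      | (have e1 := c1 a s.ma e)
    all_goals
      first
      | (have e2 := c0 b s.mb e')
      | (have e2 := c1 b s.mb e')
    all_goals
      simp only [LinearEquiv.mul_apply, hg, e1, e2, map_smul, map_sub, map_add, map_neg, aa, bb, ba,
        LinearEquiv.neg_apply]
      try module
  refine ⟨g, mem_normalizer_fintype fun t ht => ?_, gg, fun hc => ?_, ?_, fun {σ B} hP => mem_UG.2 fun u v => ?_⟩
  · obtain ⟨k1, k2, k3, k4⟩ := k t ht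
    rcases z2 (bt t a) with e | e <;> rcases z2 (bt t b) with e' | e'
    · rwa [k1 e e', mul_inv_cancel_right]
    · rw [k3 e e', mul_inv_cancel_right]; exact mul_mem ht s.ma
    · rw [k2 e e', mul_inv_cancel_right]; exact mul_mem ht s.mb
    · rw [k4 e e', mul_inv_cancel_right]; exact mul_mem (mul_mem (mul_mem h.neg ht) s.ma) s.mb
  · have := (k a' s.ma').2.1 (bt_comm a a' ▸ s.aa) s.a'b
    rw [← mem_center_iff.1 hc, mul_left_inj, left_eq_mul] at this
    exact notMem_center_of_bt s.bb (this ▸ one_mem _)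
  · change LinearMap.trace F V f = 2
    simp only [f, map_smul, map_sub, map_add, LinearMap.trace_one, h.dim4 h4,
      h.trace_eq_zero s.ma (notMem_center_of_bt s.aa), h.trace_eq_zero s.mb (notMem_center_of_bt s.bb),
      h.trace_eq_zero (mul_mem s.ma s.mb) (notMem_center_of_bt (b := a') (by
        rw [h.pg.bt_mul s.ma s.mb s.ma', s.aa, bt_comm b, s.a'b, add_zero]))]
    simp only [smul_eq_mul]; field_simp; norm_num
  · have ad : ∀ t ∈ P, (∀ v, t (t v) = v) → ∀ u v, B (t u) v = B u (t v) := fun t ht tt u v => by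
      rw [← mem_UG.1 (hP ht), tt]
    have s2 : σ (2 : F)⁻¹ = (2 : F)⁻¹ := by rw [map_inv₀, map_ofNat]
    have : ∀ u v, B (g u) v = B u (g v) := fun u v => by
      simp only [hg, map_smul, map_sub, map_add, LinearMap.map_smulₛₗ₂, LinearMap.add_apply,
        LinearMap.sub_apply, s2, ad a s.ma aa, ad b s.mb bb, ba]
    rw [this]; exact congrArg _ (ff v)

end PaL

end CF.MaxSub
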