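import Cfsg.Agent.XN.C
import Cfsg.Agent.Cls.El10
import Cfsg.Agent.Cls.Ev2
import Cfsg.Agent.Cls.RepSp
import Cfsg.Agent.Geom.C8

/-! Eigenvalue data of elements of small prime order in dimension four. -/

set_option autoImplicit false
set_option linter.unusedSectionVars false

namespace CF.XN

open Module Polynomial CF.Cls CF.Geom CF.MaxSub

section Comb

variable {A : Type*} [CommGroup A]

/-- semisimple data -/
def sm (s : Multiset A) : Multiset (A × ℕ) := s.map (·, 1)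

theorem mem_sm {s : Multiset A} {x : A × ℕ} : x ∈ sm s ↔ x.1 ∈ s ∧ x.2 = 1 := by
  simp only [sm, Multiset.mem_map]
  exact ⟨fun ⟨a, h, e⟩ => e ▸ ⟨h, rfl⟩, fun ⟨h, e⟩ => ⟨_, h, Prod.ext rfl e.symm⟩⟩

theorem dm_sm (s : Multiset A) : dm (sm s) = s.card := by simp [dm, sm]

theorem dt_sm (s : Multiset A) : dt (sm s) = s.prod := by simp [dt, sm]

theorem st_sm {Q : ℤ} {s : Multiset A} : St Q (sm s) ↔ s.map (· ^ Q) = s := by
  refine ⟨fun h => ?_, fun h => ?_⟩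
  · simpa [sm] using congrArg (Multiset.map Prod.fst) h
  · simpa [sm, St] using congrArg (Multiset.map (·, 1)) h

theorem adm_sm {Q : ℤ} {s : Multiset A} (h : s.map (· ^ Q) = s) : Adm Q s.card (sm s) :=
  ⟨fun x hx => by rw [(mem_sm.1 hx).2]; exact one_pos, dm_sm s, st_sm.2 h⟩

theorem tw_sm (z : A) (s : Multiset A) : tw z (sm s) = sm (s.map (· * z)) := by simp [tw, sm]

theorem iv_sm (s : Multiset A) : iv (sm s) = sm (s.map (·⁻¹)) := by simp [iv, sm]

/-- eigenvalues that are `r`-th roots of the same element -/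
theorem exists_zmod {r : ℕ} [NeZero r] {ζ : A} (h1 : ζ ^ r = 1) (hc : ∀ a : A, a ^ r = 1 → ∃ k : ℕ, a = ζ ^ k)
    {s : Multiset A} {c : A} (hs : ∀ a ∈ s, a ^ r = c ^ r) :
    ∃ t : Multiset (ZMod r), s = t.map fun i => c * ζ ^ i.val := by
  induction s using Multiset.induction_on with
  | empty => exact ⟨0, rfl⟩
  | cons a s ih =>
    obtain ⟨t, rfl⟩ := ih fun b hb => hs b (Multiset.mem_cons_of_mem hb)
    obtain ⟨k, hk⟩ := hc (c⁻¹ * a) (by rw [mul_pow, hs a (Multiset.mem_cons_self _ _), inv_pow, inv_mul_cancel])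
    refine ⟨(k : ZMod r) ::ₘ t, ?_⟩
    rw [Multiset.map_cons, ZMod.val_natCast, ← pow_eq_pow_mod _ h1, ← hk, mul_inv_cancel_left]

theorem st_zmod {r : ℕ} [NeZero r] {ζ : A} (h1 : orderOf ζ = r) {Q : ℤ} {t : Multiset (ZMod r)}
    (h : (t.map fun i => 1 * ζ ^ i.val).map (· ^ Q) = t.map fun i => 1 * ζ ^ i.val) :
    t.map ((Q : ZMod r) * ·) = t := by
  refine Multiset.map_injective (f := fun i : ZMod r => 1 * ζ ^ i.val) (fun i j e => ?_) ?_
  · simp only [one_mul] at e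
    rw [pow_eq_pow_iff_modEq, h1] at e
    exact ZMod.val_injective _ (Nat.ModEq.eq_of_lt_of_lt e (ZMod.val_lt i) (ZMod.val_lt j))
  · rw [← h, Multiset.map_map, Multiset.map_map]
    refine Multiset.map_congr rfl fun i _ => ?_
    simp only [Function.comp, one_mul]
    rw [← zpow_natCast, ← zpow_natCast, ← zpow_mul, zpow_eq_zpow_iff_modEq, h1, ← ZMod.intCast_eq_intCast_iff]
    simp [mul_comm]

theorem zpow_eq_of_cast {r : ℕ} {a : A} (h : a ^ r = 1) {Q Q' : ℤ} (e : (Q : ZMod r) = Q') : a ^ Q = a ^ Q' :=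
  zpow_eq_zpow_iff_modEq.2 (((ZMod.intCast_eq_intCast_iff _ _ _).1 e).of_dvd
    (Int.natCast_dvd_natCast.2 (orderOf_dvd_of_pow_eq_one h)))

theorem R5 (m a b c d : ZMod 5) (hm : m = 2 ∨ m = 3)
    (h : ({a, b, c, d} : Multiset (ZMod 5)).map (m * ·) = {a, b, c, d}) :
    ({a, b, c, d} : Multiset (ZMod 5)) = {0, 0, 0, 0} ∨ ({a, b, c, d} : Multiset (ZMod 5)) = {1, 2, 3, 4} := by
  revert m a b c d; decide +kernel

theorem R3 (a b c d : ZMod 3) (h : ({a, b, c, d} : Multiset (ZMod 3)).map (2 * ·) = {a, b, c, d}) :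
    ({a, b, c, d} : Multiset (ZMod 3)) = {0, 0, 0, 0} ∨ ({a, b, c, d} : Multiset (ZMod 3)) = {0, 0, 1, 2} ∨
      ({a, b, c, d} : Multiset (ZMod 3)) = {1, 1, 2, 2} := by
  revert a b c d; decide +kernel

theorem R2 (a b c d : ZMod 2) :
    ({a, b, c, d} : Multiset (ZMod 2)) = {0, 0, 0, 0} ∨ ({a, b, c, d} : Multiset (ZMod 2)) = {1, 1, 1, 1} ∨
      ({a, b, c, d} : Multiset (ZMod 2)) = {0, 0, 1, 1} ∨ ({a, b, c, d} : Multiset (ZMod 2)) = {0, 0, 0, 1} ∨
      ({a, b, c, d} : Multiset (ZMod 2)) = {1, 1, 1, 0} := by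
  revert a b c d; decide +kernel

end Comb

variable {F : Type*} [Field F] [Finite F] {K : Type*} [Field K] [Algebra F K] [IsAlgClosed K]
  [Algebra.IsAlgebraic F K] (p : ℕ) [hp : Fact p.Prime] [CharP F p] {V : Type*} [AddCommGroup V] [Module F V]
  [FiniteDimensional F V]

theorem tr_ev {f : End F V} (hf : IsUnit f) :
    algebraMap F K (LinearMap.trace F V f) = ((ev K f).map fun x => (x.2 : K) * x.1).sum := by
  have h1 : LinearMap.trace F V f = -f.charpoly.nextCoeff := by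
    rw [LinearMap.trace_eq_matrix_trace F (finBasis F V), Matrix.trace_eq_neg_charpoly_nextCoeff,
      LinearMap.charpoly_toMatrix]
  rw [h1, map_neg, ← nextCoeff_map_eq, charpoly_map_ev hf,
    Monic.nextCoeff_multiset_prod _ _ fun x _ => (monic_X_sub_C _).pow _, ← Multiset.sum_map_neg]
  refine congrArg _ (Multiset.map_congr rfl fun x _ => ?_)
  rw [(monic_X_sub_C _).nextCoeff_pow, nextCoeff_X_sub_C]; simp

omit [Finite F] [FiniteDimensional F V] in
theorem coe_pow_le (x : V ≃ₗ[F] V) (n : ℕ) : ((x ^ n : V ≃ₗ[F] V) : End F V) = (x : End F V) ^ n :=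
  map_pow (LinearEquiv.automorphismGroup.toLinearMapMonoidHom) x n

theorem isUnit_le (x : V ≃ₗ[F] V) : IsUnit (x : End F V) :=
  ⟨⟨x, (x⁻¹ : V ≃ₗ[F] V), LinearMap.ext (apply_inv_apply x), LinearMap.ext (inv_apply_apply x)⟩, rfl⟩

include p in
theorem ev_inv (x : V ≃ₗ[F] V) : ev K ((x⁻¹ : V ≃ₗ[F] V) : End F V) = iv (ev K (x : End F V)) := by
  obtain ⟨B, hB⟩ := exists_eh_one (σ := RingHom.id F) (fun _ => rfl) V
  rw [ev_inv_adj p hB (hB.isAnti_adj.isUnit (isUnit_le x)) (g := (x⁻¹ : V ≃ₗ[F] V))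
    (by rw [hB.adj_adj]; exact LinearMap.ext (apply_inv_apply x)), ev, ev,
    ed_eq_of_kd (f := hB.adj (x : End F V)) (g := (x : End F V)) fun π _ _ k => by
      have := hB.kd_adj (x : End F V) (π ^ k)
      rwa [Polynomial.map_id] at this]

theorem tr_sm {x : V ≃ₗ[F] V} {s : Multiset Kˣ} (h : ev K (x : End F V) = sm s) :
    algebraMap F K (LinearMap.trace F V x) = (s.map Units.val).sum := by
  rw [tr_ev (isUnit_le x), h]; simp [sm]

include p

theorem det_sm {x : V ≃ₗ[F] V} {s : Multiset Kˣ} (h : ev K (x : End F V) = sm s) :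
    x ∈ SLG F V ↔ s.prod = 1 := by
  rw [mem_SLG, ← dt_eq_one_iff (K := K) p (isUnit_le x), h, dt_sm]

theorem pow_sm {x : V ≃ₗ[F] V} {s : Multiset Kˣ} (h : ev K (x : End F V) = sm s) {r : ℕ}
    (hs : ∀ a ∈ s, a ^ r = 1) : x ^ r = 1 := by
  apply LinearEquiv.toLinearMap_injective
  rw [coe_pow_le]
  refine (pow_eq_one_iff_ev (K := K) p (isUnit_le x) r).2 fun y hy => ?_
  rw [h, mem_sm] at hy
  exact ⟨hs _ hy.1, by simp [hy.2]⟩

theorem cen_sm {x : V ≃ₗ[F] V} {s : Multiset Kˣ} (h : ev K (x : End F V) = sm s) :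
    x ∈ Subgroup.center (V ≃ₗ[F] V) ↔ ∃ c, ∀ a ∈ s, a = c := by
  have := scalar_iff_po (K := K) p (isUnit_le x) 1
  rw [pow_one, h] at this
  rw [mem_center_iff_smul]
  refine Iff.trans (exists_congr fun c => ⟨fun e => LinearMap.ext e, fun e v => LinearMap.congr_fun e v⟩)
    (this.trans ⟨fun ⟨⟨c, hc⟩, _⟩ => ⟨c, fun a ha => by simpa using hc (a, 1) (mem_sm.2 ⟨ha, rfl⟩)⟩,
      fun ⟨c, hc⟩ => ⟨⟨c, fun y hy => by simpa using hc _ (mem_sm.1 hy).1⟩, fun y hy => by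
        simp [(mem_sm.1 hy).2]⟩⟩)

theorem exists_sm {x : V ≃ₗ[F] V} {r : ℕ} (hr : r.Prime) (rp : r ≠ p) {z : F}
    (h : (x : End F V) ^ r = algebraMap F _ z) : ∃ s : Multiset Kˣ, ev K (x : End F V) = sm s ∧
      s.card = finrank F V ∧ ∀ a ∈ s, (a : K) ^ r = algebraMap F K z := by
  have h1 := (pow_eq_iff_ev (K := K) p (isUnit_le x) r z).1 h
  have h2 := adm_ev' (K := K) p (isUnit_le x)
  have h3 : ev K (x : End F V) = sm ((ev K (x : End F V)).map Prod.fst) := by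
    rw [sm, Multiset.map_map]
    refine (Multiset.map_id _).symm.trans (Multiset.map_congr rfl fun y hy => Prod.ext rfl ?_)
    have := h2.pos y hy
    by_contra hne
    have h4 : 0 < Nat.clog p y.2 := Nat.clog_pos hp.out.one_lt (by simp at hne; omega)
    exact rp ((Nat.prime_dvd_prime_iff_eq hp.out hr).1 ((dvd_pow_self p h4.ne').trans (h1 y hy).2)).symm
  refine ⟨_, h3, by rw [← dm_sm, ← h3, h2.dim], fun a ha => ?_⟩
  obtain ⟨y, hy, rfl⟩ := Multiset.mem_map.1 ha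
  exact (h1 y hy).1

omit p in
theorem exists_t {p : ℕ} (hT : TA Kˣ p) {r : ℕ} [NeZero r] {ζ : Kˣ} (hζ : orderOf ζ = r) {s : Multiset Kˣ} (h4 : s.card = 4) {c : Kˣ}
    (hs : ∀ a ∈ s, a ^ r = c ^ r) : ∃ a b d e : ZMod r,
      s = ({a, b, d, e} : Multiset (ZMod r)).map fun i => c * ζ ^ i.val := by
  obtain ⟨t, rfl⟩ := exists_zmod (hζ ▸ pow_orderOf_eq_one ζ)
    (fun a ha => hT.cyc ζ a (hζ ▸ orderOf_dvd_of_pow_eq_one ha)) hs
  rw [Multiset.card_map, Multiset.card_eq_four] at h4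
  obtain ⟨a, b, d, e, rfl⟩ := h4
  exact ⟨a, b, d, e, rfl⟩

variable (hV : finrank F V = 4) {x : V ≃ₗ[F] V} {Q : ℤ}
include hV

theorem ev_odd {r : ℕ} [NeZero r] (hr : r.Prime) (rp : r ≠ p) {ζ : Kˣ} (hζ : orderOf ζ = r) (e : x ^ r = 1)
    (hs : St Q (ev K (x : End F V))) : ∃ a b c d : ZMod r,
      ({a, b, c, d} : Multiset (ZMod r)).map ((Q : ZMod r) * ·) = {a, b, c, d} ∧
      ev K (x : End F V) = sm (({a, b, c, d} : Multiset (ZMod r)).map fun i => 1 * ζ ^ i.val) := by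
  obtain ⟨s, h1, h2, h3⟩ := exists_sm (K := K) (x := x) p hr rp (z := 1)
    (by rw [← coe_pow_le, e, map_one]; rfl)
  obtain ⟨a, b, c, d, rfl⟩ := exists_t (ta_K F p) hζ (h2.trans hV) (c := 1) fun a ha =>
    Units.ext (by simpa using h3 a ha)
  exact ⟨a, b, c, d, st_zmod hζ (st_sm.1 (h1 ▸ hs)), h1⟩

theorem ev_five (rp : 5 ≠ p) {ζ : Kˣ} (hζ : orderOf ζ = 5) (e : x ^ 5 = 1) (hs : St Q (ev K (x : End F V)))
    (hQ : (Q : ZMod 5) = 2 ∨ (Q : ZMod 5) = 3) (x0 : x ∉ Subgroup.center _) :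
    ev K (x : End F V) = sm (({1, 2, 3, 4} : Multiset (ZMod 5)).map fun i => 1 * ζ ^ i.val) := by
  obtain ⟨a, b, c, d, h1, h2⟩ := ev_odd p hV Nat.prime_five rp hζ e hs
  rcases R5 _ a b c d hQ h1 with h | h <;> rw [h] at h2
  · exact absurd ((cen_sm p h2).2 ⟨1, by simp⟩) x0
  · exact h2

theorem ev_three (rp : 3 ≠ p) {ζ : Kˣ} (hζ : orderOf ζ = 3) (e : x ^ 3 = 1) (hs : St Q (ev K (x : End F V)))
    (hQ : (Q : ZMod 3) = 2) :
    (x ∈ Subgroup.center _ ∧ LinearMap.trace F V x = 4) ∨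
    (ev K (x : End F V) = sm {1, 1, ζ, ζ ^ 2} ∧ LinearMap.trace F V x = 1) ∨
    (ev K (x : End F V) = sm {ζ, ζ, ζ ^ 2, ζ ^ 2} ∧ LinearMap.trace F V x = -2) := by
  obtain ⟨a, b, c, d, h1, h2⟩ := ev_odd p hV Nat.prime_three rp hζ e hs
  have z3 : (ζ : K) ^ 2 + ζ + 1 = 0 := by
    have a1 : (ζ : K) ^ 3 = 1 := by rw [← Units.val_pow_eq_pow_val, ← hζ, pow_orderOf_eq_one]; rfl
    have a2 : (ζ : K) - 1 ≠ 0 := fun h => by
      rw [Units.val_eq_one.1 (sub_eq_zero.1 h), orderOf_one] at hζ; omega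
    exact mul_left_cancel₀ a2 (by linear_combination a1)
  have v1 : (1 : ZMod 3).val = 1 := rfl
  have v2 : (2 : ZMod 3).val = 2 := rfl
  have inj := (algebraMap F K).injective
  rw [hQ] at h1
  rcases R3 a b c d h1 with h | h | h <;> rw [h] at h2 <;> have h3 := tr_sm h2
  · exact .inl ⟨(cen_sm p h2).2 ⟨1, by simp⟩, inj (by rw [h3, map_ofNat]; simp; norm_num)⟩
  · exact .inr (.inl ⟨by simpa [v1, v2] using h2, inj (by
      rw [h3, map_one]; simp [v1, v2]; linear_combination z3)⟩)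
  · exact .inr (.inr ⟨by simpa [v1, v2] using h2, inj (by
      rw [h3, map_neg, map_ofNat]; simp [v1, v2]; linear_combination 2 * z3)⟩)

theorem ev_two (rp : 2 ≠ p) {z : F} (e : (x : End F V) ^ 2 = algebraMap F _ z) (x0 : x ∉ Subgroup.center _) :
    ∃ c : Kˣ, (c : K) ^ 2 = algebraMap F K z ∧
      (ev K (x : End F V) = sm {c, c, -c, -c} ∨ ev K (x : End F V) = sm {c, c, c, -c}) := by
  obtain ⟨s, h1, h2, h3⟩ := exists_sm (K := K) p Nat.prime_two rp e
  obtain ⟨c, hc⟩ := Multiset.card_pos_iff_exists_mem.1 (show 0 < s.card by omega)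
  have hζ : orderOf (-1 : Kˣ) = 2 := by
    haveI : CharP K p := charP_of_injective_algebraMap (algebraMap F K).injective p
    rw [← orderOf_units, Units.val_neg, Units.val_one, orderOf_neg_one, ringChar.eq K p, if_neg rp.symm]
  obtain ⟨a, b, d, e, h⟩ := exists_t (ta_K F p) hζ (h2.trans hV) (c := c) fun a ha =>
    Units.ext (by simp [h3 a ha, h3 c hc])
  have v1 : (1 : ZMod 2).val = 1 := rfl
  rcases R2 a b d e with k | k | k | k | k <;> rw [k] at h <;> rw [h] at h1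
  · exact absurd ((cen_sm p h1).2 ⟨c, by simp⟩) x0
  · exact absurd ((cen_sm p h1).2 ⟨-c, by simp [v1]⟩) x0
  · exact ⟨c, h3 c hc, .inl (by simpa [v1] using h1)⟩
  · exact ⟨c, h3 c hc, .inr (by simpa [v1] using h1)⟩
  · exact ⟨-c, by simpa using h3 c hc, .inr (by simpa [v1] using h1)⟩

end CF.XN
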