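import Cfsg.Agent.XN.D

/-! Elements of prime order with a conjugate in the normaliser of a Pauli group in dimension four. -/

set_option autoImplicit false
set_option linter.unusedSectionVars false

namespace CF.XN

open Module Polynomial CF.Cls CF.Geom CF.MaxSub Subgroup

/-- Every element of projective order `r` has a conjugate in `N`. -/
def El {Γ : Type*} [Group Γ] (G N : Subgroup Γ) (r : ℕ) : Prop :=
  ∀ x ∈ G, x ^ r ∈ center Γ → x ∉ center Γ → ∃ g ∈ G, g⁻¹ * x * g ∈ N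

variable {F : Type*} [Field F] [Finite F] (K : Type*) [Field K] [Algebra F K] [IsAlgClosed K]
  [Algebra.IsAlgebraic F K] {V : Type*} [AddCommGroup V] [Module F V] [Finite V]

/-- The ambient classical group. -/
structure Amb (G : Subgroup (V ≃ₗ[F] V)) (Q : ℤ) : Prop where
  st : ∀ x ∈ G, St Q (ev K (x : End F V))
  det : G ≤ SLG F V
  conj : ∀ x ∈ G, ∀ y ∈ G, ∀ m : ℕ, (m : F) ≠ 0 → x ^ m = 1 → Sim (x : End F V) (y : End F V) →
    ∃ g ∈ G, g⁻¹ * x * g = y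
  tv : ∃ (φ : Dual F V) (v : V) (h0 : φ v = 0), v ≠ 0 ∧ φ ≠ 0 ∧ tvE h0 ∈ G
  ex : ∀ ζ : Kˣ, ζ ^ Q = ζ ∨ ζ ^ Q = ζ⁻¹ → ζ ^ 2 ≠ 1 → ∃ x ∈ G, ev K (x : End F V) = sm {1, 1, ζ, ζ⁻¹}

variable {K} (p : ℕ) [hp : Fact p.Prime] [CharP F p] {G P : Subgroup (V ≃ₗ[F] V)} {Q : ℤ}

omit hp [CharP F p] in
theorem center_le_Nm (P : Subgroup (V ≃ₗ[F] V)) : center _ ≤ Nm P := center_le_normalizer _

theorem exists_root (K : Type*) [Field K] [Algebra F K] [IsAlgClosed K] [Algebra.IsAlgebraic F K] {r : ℕ}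
    (hr : r.Prime) (rp : r ≠ p) : ∃ ζ : Kˣ, orderOf ζ = r :=
  (ta_K F p).ex r ((Nat.coprime_primes hr hp.out).2 rp)

theorem cast_ne {r : ℕ} (hr : r.Prime) (rp : r ≠ p) : (r : F) ≠ 0 := fun h =>
  rp ((Nat.prime_dvd_prime_iff_eq hp.out hr).1 ((CharP.cast_eq_zero_iff F p r).1 h)).symm

theorem PaL_ne (h : PaL P) : 2 ≠ p := by
  rintro rfl
  exact h.two (by exact_mod_cast CharP.cast_eq_zero F 2)

namespace Amb

variable (A : Amb K G Q) (h : PaL P) (h4 : finrank (ZMod 2) h.pg.W = 4)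
include A h4

omit hp [CharP F p] in
theorem cen_four {x : V ≃ₗ[F] V} (hx : x ∈ G) (hc : x ∈ center _) : x ^ 4 = 1 := by
  obtain ⟨c, e⟩ := mem_center_iff_smul.1 hc
  have h1 := mem_SLG.1 (A.det hx)
  rw [show (x : V →ₗ[F] V) = c • LinearMap.id from LinearMap.ext e, LinearMap.det_smul, h.dim4 h4,
    LinearMap.det_id, mul_one] at h1
  refine LinearEquiv.ext fun v => ?_
  simp only [pow_succ, pow_zero, one_mul, LinearEquiv.mul_apply, e, smul_smul]
  rw [show c * (c * (c * c)) = 1 by linear_combination h1, one_smul]; rfl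

omit hp [CharP F p] in
theorem el_odd {r : ℕ} (hr : Odd r) (H : ∀ x ∈ G, x ^ r = 1 → x ∉ center _ → ∃ g ∈ G, g⁻¹ * x * g ∈ Nm P) :
    El G (Nm P) r := fun x hx hc x0 => by
  obtain ⟨k, hk⟩ : ∃ k, 4 * k % r = 1 % r := by
    obtain ⟨m, rfl⟩ := hr
    exact ⟨(m + 1) ^ 2, by
      rw [show 4 * (m + 1) ^ 2 = 1 + (2 * m + 1) * (2 * m + 3) by ring, Nat.add_mul_mod_self_left]⟩
  have e : ∃ c ∈ center (V ≃ₗ[F] V), x = (x ^ 4) ^ k * c := by
    refine ⟨(x ^ r) ^ (1 / r) * ((x ^ r) ^ (4 * k / r))⁻¹, mul_mem (pow_mem hc _) (inv_mem (pow_mem hc _)), ?_⟩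
    have a1 := Nat.mod_add_div (4 * k) r
    have a2 := Nat.mod_add_div 1 r
    rw [← pow_mul, ← pow_mul, ← pow_mul, ← mul_assoc, eq_mul_inv_iff_mul_eq, ← pow_add, ← pow_succ']
    congr 1; omega
  obtain ⟨c, hc', e⟩ := e
  obtain ⟨g, hg, k1⟩ := H (x ^ 4) (pow_mem hx 4) (by
    rw [← pow_mul, mul_comm, pow_mul]; exact A.cen_four h h4 (pow_mem hx r) hc)
    fun h0 => x0 (e ▸ mul_mem (pow_mem h0 k) hc')
  refine ⟨g, hg, ?_⟩
  have : g⁻¹ * x * g = (g⁻¹ * x ^ 4 * g) ^ k * c := by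
    conv_lhs => rw [e, mul_assoc, mul_assoc, ← mem_center_iff.1 hc' g]
    have := conj_pow (a := g⁻¹) (b := x ^ 4) (i := k)
    rw [inv_inv] at this
    rw [this]; group
  exact this ▸ mul_mem (pow_mem k1 k) (center_le_Nm P hc')

omit h4 hp [CharP F p] in
theorem of_ev {x y : V ≃ₗ[F] V} (hx : x ∈ G) (hy : y ∈ G ⊓ Nm P) {m : ℕ} (hm : (m : F) ≠ 0) (e : x ^ m = 1)
    (he : ev K (x : End F V) = ev K (y : End F V)) : ∃ g ∈ G, g⁻¹ * x * g ∈ Nm P := by
  obtain ⟨g, hg, k⟩ := A.conj x hx y hy.1 m hm e ((sim_iff_ev (isUnit_le x) (isUnit_le y)).2 he)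
  exact ⟨g, hg, k ▸ hy.2⟩

include hp

theorem el_five (rp : 5 ≠ p) (hQ : (Q : ZMod 5) = 2 ∨ (Q : ZMod 5) = 3) {g : V ≃ₗ[F] V}
    (hg : g ∈ G ⊓ Nm P) (g0 : g ∉ center _) (g5 : g ^ 5 ∈ center _) : El G (Nm P) 5 := by
  obtain ⟨ζ, hζ⟩ := exists_root (F := F) p K Nat.prime_five rp
  refine A.el_odd h h4 (by decide) fun x hx e x0 => A.of_ev hx (pow_mem hg 4)
    (cast_ne p Nat.prime_five rp) e ?_
  rw [ev_five p (h.dim4 h4) rp hζ e (A.st x hx) hQ x0, ev_five p (h.dim4 h4) rp hζ (x := g ^ 4)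
    (by rw [← pow_mul, mul_comm, pow_mul]; exact A.cen_four h h4 (pow_mem hg.1 5) g5)
    (A.st _ (pow_mem hg.1 4)) hQ fun h0 => g0 (by
      rw [show g = g ^ 5 * (g ^ 4)⁻¹ by group]; exact mul_mem g5 (inv_mem h0))]

theorem el_three (rp : 3 ≠ p) (hQ : (Q : ZMod 3) = 2)
    (H : (∃ g ∈ G ⊓ Nm P, g ^ 3 = 1 ∧ trE g = -2) ∧ ∃ g ∈ G ⊓ Nm P, g ^ 3 = 1 ∧ trE g = 1) :
    El G (Nm P) 3 := by
  obtain ⟨ζ, hζ⟩ := exists_root (F := F) p K Nat.prime_three rp
  obtain ⟨⟨a, ha, a3, ta⟩, b, hb, b3, tb⟩ := H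
  have n3 : (3 : F) ≠ 0 := by exact_mod_cast cast_ne (F := F) p Nat.prime_three rp
  have n2 := h.two
  refine A.el_odd h h4 (by decide) fun x hx e x0 => ?_
  rcases ev_three p (h.dim4 h4) rp hζ e (A.st x hx) hQ with k | k | k
  · exact absurd k.1 x0
  · refine A.of_ev hx hb (cast_ne p Nat.prime_three rp) e (k.1.trans ?_)
    rcases ev_three p (h.dim4 h4) rp hζ b3 (A.st b hb.1) hQ with l | l | l
    · exact absurd (by linear_combination tb - l.2) n3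
    · exact l.1.symm
    · exact absurd (by linear_combination l.2 - tb) n3
  · refine A.of_ev hx ha (cast_ne p Nat.prime_three rp) e (k.1.trans ?_)
    rcases ev_three p (h.dim4 h4) rp hζ a3 (A.st a ha.1) hQ with l | l | l
    · exact absurd (by linear_combination ta - l.2) (mul_ne_zero n2 n3)
    · exact absurd (by linear_combination ta - l.2) n3
    · exact l.1.symm

theorem el_two (hP : P ≤ G) {x : Fin 5 → V ≃ₗ[F] V} (a : AC P x)
    (H : ∀ c : Kˣ, c ^ Q = c → c ^ 4 = -1 → (∃ y ∈ G, ∃ z : F, (y : End F V) ^ 2 = algebraMap F _ z ∧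
      (c : K) ^ 2 = algebraMap F K z) → ∃ y ∈ G ⊓ Nm P, ev K (y : End F V) = sm {c, c, c, -c}) :
    El G (Nm P) 2 := fun y hy hc y0 => by
  have rp := PaL_ne p h
  have n2 : (2 : K) ≠ 0 := by rw [← map_ofNat (algebraMap F K), _root_.map_ne_zero]; exact h.two
  have n8 : ((8 : ℕ) : F) ≠ 0 := by
    rw [show ((8 : ℕ) : F) = 2 ^ 3 by norm_num]; exact pow_ne_zero _ h.two
  have y8 : y ^ 8 = 1 := by rw [show 8 = 2 * 4 from rfl, pow_mul]; exact A.cen_four h h4 (pow_mem hy 2) hc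
  obtain ⟨z, hz⟩ := mem_center_iff_smul.1 hc
  have e : (y : End F V) ^ 2 = algebraMap F _ z := by rw [← coe_pow_le]; exact LinearMap.ext hz
  obtain ⟨c, c2, k | k⟩ := ev_two (K := K) p (h.dim4 h4) rp e y0
  · have d := congrArg Units.val ((det_sm p k).1 (A.det hy))
    simp at d
    have key : ∀ u ∈ P, u ∉ center _ → (u : End F V) ^ 2 = algebraMap F _ z → ∃ g ∈ G, g⁻¹ * y * g ∈ Nm P := by
      intro u hu u0 e'
      refine A.of_ev hy ⟨hP hu, le_normalizer hu⟩ n8 y8 (k.trans ?_)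
      obtain ⟨b, b2, l | l⟩ := ev_two (K := K) p (h.dim4 h4) rp e' u0
      · rw [l]
        rcases sq_eq_sq_iff_eq_or_eq_neg.1 (b2.trans c2.symm) with e1 | e1
        · rw [Units.ext e1]
        · rw [show b = -c from Units.ext e1, neg_neg]
          exact congrArg sm (Multiset.coe_eq_coe.2 (List.perm_append_comm (l₁ := [c, c]) (l₂ := [-c, -c])))
      · have d' := congrArg Units.val ((det_sm p l).1 (A.det (hP hu)))
        simp at d'
        exact absurd (by linear_combination -d' - d + ((b : K) ^ 2 + c ^ 2) * (c2 - b2)) n2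
    have z2 : z * z = 1 := (algebraMap F K).injective (by
      rw [map_mul, map_one, ← c2]; linear_combination d)
    rcases mul_self_eq_one_iff.1 z2 with rfl | rfl
    · exact key (x 0) (a.mem 0) (notMem_center_of_bt (a.anti 0 1 (by decide)))
        (by rw [← coe_pow_le, pow_two, a.sq, map_one]; rfl)
    · exact key (x 0 * x 1) (mul_mem (a.mem 0) (a.mem 1)) (a.nc h.pg (by decide))
        (by rw [← coe_pow_le, pow_two, a.sq2 h.pg (by decide)]; exact LinearMap.ext fun v => by simp)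
  · have d := (det_sm p k).1 (A.det hy)
    have cn : -c ≠ c := fun e => mul_ne_zero n2 c.ne_zero (by
      have := congrArg Units.val e
      simp only [Units.val_neg] at this
      linear_combination -this)
    obtain ⟨u, hu, l⟩ := H c (by
      classical
      have s := st_sm.1 (k ▸ A.st y hy)
      by_contra hne
      have := congrArg (Multiset.count c) s
      simp only [Multiset.insert_eq_cons, Multiset.map_cons, Multiset.map_singleton, Multiset.count_cons,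
        Multiset.count_singleton, if_neg (Ne.symm hne), if_neg cn.symm, if_true] at this
      split_ifs at this <;> omega) (by
        simp only [Multiset.insert_eq_cons, Multiset.prod_cons, Multiset.prod_singleton] at d
        rw [← d]; simp [pow_succ, mul_assoc]) ⟨y, hy, z, e, c2⟩
    exact A.of_ev hy hu n8 y8 (k.trans l.symm)

theorem not_char : ¬ El G (Nm P) p := fun H => by
  obtain ⟨φ, v, h0, v0, φ0, m⟩ := A.tv
  have k : ∀ (n : ℕ) w, (tvE h0 ^ n) w = w + (n * φ w) • v := fun n w => by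
    induction n with
    | zero => simp
    | succ n ih => rw [pow_succ', LinearEquiv.mul_apply, ih, tvE_apply]; simp [h0]; module
  have h3 : 3 ≤ finrank F V := by rw [h.dim4 h4]; omega
  obtain ⟨g, -, hg⟩ := H _ m (by
    rw [show tvE h0 ^ p = 1 from LinearEquiv.ext fun w => by simp [k]]; exact one_mem _)
    fun hc => φ0 (h.not_tv h3 h0 v0 (center_le_Nm P hc))
  have hg' : g⁻¹ * tvE h0 * g⁻¹⁻¹ ∈ Nm P := by rwa [inv_inv]
  rw [conj_tvE] at hg'
  have := h.not_tv h3 _ (by simpa using v0) hg'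
  exact φ0 (LinearMap.ext fun w => by simpa using LinearMap.congr_fun this (g⁻¹ w))

omit hp [CharP F p] in
theorem tr_of_el {r : ℕ} (H : El G (Nm P) r) {x : V ≃ₗ[F] V} (hx : x ∈ G) (e : x ^ r = 1) (x0 : x ∉ center _) :
    ∃ y ∈ G ⊓ Nm P, y ^ r = 1 ∧ y ∉ center _ ∧ trE y * trE y⁻¹ = trE x * trE x⁻¹ := by
  obtain ⟨g, hg, k⟩ := H x hx (e ▸ one_mem _) x0
  refine ⟨g⁻¹ * x * g⁻¹⁻¹, ⟨G.mul_mem (G.mul_mem (G.inv_mem hg) hx) (G.inv_mem (G.inv_mem hg)), by rwa [inv_inv]⟩,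
    by rw [conj_pow, e]; simp, by rwa [conj_mem_center_iff], by rw [conj_inv, trE_conj, trE_conj]⟩

omit hp [CharP F p] in
theorem small {r : ℕ} (hr : r.Prime) (H : El G (Nm P) r) (hx : ∃ x ∈ G, orderOf x = r) :
    r = 2 ∨ r = 3 ∨ r = 5 := by
  obtain ⟨x, hx, e⟩ := hx
  refine or_iff_not_imp_left.2 fun r2 => ?_
  obtain ⟨y, hy, e', y0, -⟩ := A.tr_of_el h h4 H hx (e ▸ pow_orderOf_eq_one x) fun hc =>
    r2 ((Nat.prime_dvd_prime_iff_eq hr Nat.prime_two).1 (hr.dvd_of_dvd_pow (n := 2)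
      (e ▸ orderOf_dvd_of_pow_eq_one (A.cen_four h h4 hx hc))))
  exact (h.tr_cases h4 hy.2 hr r2 e' y0).imp And.left And.left

omit A h4 in
theorem tr_tr {x : V ≃ₗ[F] V} {s : Multiset Kˣ} (k : ev K (x : End F V) = sm s) :
    algebraMap F K (trE x * trE x⁻¹) = (s.map Units.val).sum * ((s.map (·⁻¹)).map Units.val).sum := by
  rw [map_mul, tr_sm k, tr_sm ((ev_inv p x).trans (k ▸ iv_sm s))]

theorem ex_tr {r : ℕ} (H : El G (Nm P) r) {ζ : Kˣ} (hζ : orderOf ζ = r) (h2 : 2 < r)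
    (hQ : (Q : ZMod r) = 1 ∨ (Q : ZMod r) = -1) : ∃ y ∈ G ⊓ Nm P, y ^ r = 1 ∧ y ∉ center _ ∧
      algebraMap F K (trE y * trE y⁻¹) = (2 + (ζ + (ζ : K)⁻¹)) ^ 2 := by
  have z := hζ ▸ pow_orderOf_eq_one ζ
  obtain ⟨x, hx, k⟩ := A.ex ζ (hQ.imp (fun e => by rw [zpow_eq_of_cast z (Q' := 1) (by simpa), zpow_one])
    fun e => by rw [zpow_eq_of_cast z (Q' := -1) (by simpa), zpow_neg_one])
    fun e => absurd (Nat.le_of_dvd two_pos (hζ ▸ orderOf_dvd_of_pow_eq_one e)) (by omega)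
  obtain ⟨y, hy, e, y0, t⟩ := A.tr_of_el h h4 H hx (pow_sm p k (by simp [z])) fun hc => by
    obtain ⟨c, hc⟩ := (cen_sm p k).1 hc
    rw [(hc ζ (by simp)).trans (hc 1 (by simp)).symm, orderOf_one] at hζ; omega
  refine ⟨y, hy, e, y0, ?_⟩
  rw [t, tr_tr p k]; simp; ring

theorem not_five (rp : 5 ≠ p) (hQ : (Q : ZMod 5) = 1 ∨ (Q : ZMod 5) = -1) : ¬ El G (Nm P) 5 := fun H => by
  obtain ⟨ζ, hζ⟩ := exists_root (F := F) p K Nat.prime_five rp
  obtain ⟨y, hy, e, y0, t⟩ := A.ex_tr p h h4 H hζ (by omega) hQ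
  rcases h.tr_cases h4 hy.2 Nat.prime_five (by omega) e y0 with ⟨c, -⟩ | ⟨-, c⟩
  · omega
  rw [c, map_one] at t
  have a1 : (ζ : K) ^ 5 = 1 := by rw [← Units.val_pow_eq_pow_val, ← hζ, pow_orderOf_eq_one]; rfl
  have a2 : (ζ : K) - 1 ≠ 0 := fun h => by
    rw [Units.val_eq_one.1 (sub_eq_zero.1 h), orderOf_one] at hζ; omega
  have a3 : (ζ : K)⁻¹ = ζ ^ 4 := inv_eq_of_mul_eq_one_right (by rw [← a1]; ring)
  have a4 : (ζ : K) ^ 4 + ζ ^ 3 + ζ ^ 2 + ζ + 1 = 0 := mul_left_cancel₀ a2 (by linear_combination a1)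
  have a5 : ((ζ : K) + ζ ^ 4) ^ 2 + (ζ + ζ ^ 4) - 1 = 0 := by linear_combination a4 + ((ζ : K) ^ 3 + 2) * a1
  rw [a3] at t
  generalize (ζ : K) + ζ ^ 4 = τ at t a5
  have n5 : (5 : K) ≠ 0 := by
    rw [← map_ofNat (algebraMap F K), _root_.map_ne_zero]; exact_mod_cast cast_ne (F := F) p Nat.prime_five rp
  exact n5 (by linear_combination (3 * τ - 1) * (-t - a5) - 9 * a5)

theorem not_three_sp (rp : 3 ≠ p) (hQ : (Q : ZMod 3) ≠ 0) {x : Fin 5 → V ≃ₗ[F] V} (a : AC P x)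
    (hx : ∀ y ∈ P, y * y = 1 → y ∉ center _ → ∃ i, h.pg.cl y = h.pg.cl (x i)) : ¬ El G (Nm P) 3 := fun H => by
  obtain ⟨ζ, hζ⟩ := exists_root (F := F) p K Nat.prime_three rp
  obtain ⟨y, hy, e, y0, t⟩ := A.ex_tr p h h4 H hζ (by omega)
    ((by decide : ∀ q : ZMod 3, q ≠ 0 → q = 1 ∨ q = -1) _ hQ)
  rw [h.tr_minus h4 a hx hy.2 e y0, map_ofNat] at t
  have a1 : (ζ : K) ^ 3 = 1 := by rw [← Units.val_pow_eq_pow_val, ← hζ, pow_orderOf_eq_one]; rfl
  have a2 : (ζ : K) - 1 ≠ 0 := fun h => by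
    rw [Units.val_eq_one.1 (sub_eq_zero.1 h), orderOf_one] at hζ; omega
  have a3 : (ζ : K)⁻¹ = ζ ^ 2 := inv_eq_of_mul_eq_one_right (by rw [← a1]; ring)
  have a4 : (ζ : K) + ζ ^ 2 = -1 := mul_left_cancel₀ a2 (by linear_combination a1)
  have n3 : (3 : K) ≠ 0 := by
    rw [← map_ofNat (algebraMap F K), _root_.map_ne_zero]; exact_mod_cast cast_ne (F := F) p Nat.prime_three rp
  rw [a3, a4] at t
  exact n3 (by linear_combination t)

theorem not_three (rp : 3 ≠ p) (hQ : (Q : ZMod 3) = 1)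
    (hx : ∀ s : Multiset Kˣ, s.card = 4 → s.map (· ^ Q) = s → s.prod = 1 → ∃ x ∈ G, ev K (x : End F V) = sm s) :
    ¬ El G (Nm P) 3 := fun H => by
  obtain ⟨ζ, hζ⟩ := exists_root (F := F) p K Nat.prime_three rp
  have z := hζ ▸ pow_orderOf_eq_one ζ
  obtain ⟨x, hx, k⟩ := hx {ζ, ζ, ζ, 1} rfl (by
    simp [zpow_eq_of_cast z (Q := Q) (Q' := 1) (by simpa)]) (by simpa [pow_three] using z)
  obtain ⟨y, hy, e, y0, t⟩ := A.tr_of_el h h4 H hx (pow_sm p k (by simp [z])) fun hc => by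
    obtain ⟨c, hc⟩ := (cen_sm p k).1 hc
    rw [(hc ζ (by simp)).trans (hc 1 (by simp)).symm, orderOf_one] at hζ; omega
  have t' := tr_tr p k
  rw [← t] at t'
  have a1 : (ζ : K) ^ 3 = 1 := by rw [← Units.val_pow_eq_pow_val, z]; rfl
  have a2 : (ζ : K) - 1 ≠ 0 := fun h => by
    rw [Units.val_eq_one.1 (sub_eq_zero.1 h), orderOf_one] at hζ; omega
  have a3 : (ζ : K)⁻¹ = ζ ^ 2 := inv_eq_of_mul_eq_one_right (by rw [← a1]; ring)
  have a4 : (ζ : K) + ζ ^ 2 = -1 := mul_left_cancel₀ a2 (by linear_combination a1)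
  have n2 : (2 : K) ≠ 0 := by rw [← map_ofNat (algebraMap F K), _root_.map_ne_zero]; exact h.two
  have n3 : (3 : K) ≠ 0 := by
    rw [← map_ofNat (algebraMap F K), _root_.map_ne_zero]; exact_mod_cast cast_ne (F := F) p Nat.prime_three rp
  simp only [Multiset.insert_eq_cons, Multiset.map_cons, Multiset.map_singleton, Multiset.sum_cons,
    Multiset.sum_singleton, Units.val_inv_eq_inv_val, a3, inv_one, Units.val_one] at t'
  rcases h.tr_cases h4 hy.2 Nat.prime_three (by omega) e y0 with ⟨-, c | c⟩ | ⟨c, -⟩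
  · rw [c, map_one] at t'
    exact mul_ne_zero n2 n3 (by linear_combination -t' - 9 * a1 - 3 * a4)
  · rw [c, map_ofNat] at t'
    exact n3 (by linear_combination -t' - 9 * a1 - 3 * a4)
  · omega

end Amb

end CF.XN
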